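import Mathlib
import Cfsg.Agent.Lib.PGroup.WeakClosureSFour
import Cfsg.Agent.Lib.PGroup.ZJ

/-!
# Dihedral action without `S₄`-sections, all inside an ambient group
-/

namespace Cfsg.Agent.Lib.SFree

open Subgroup Cfsg.Agent.Lib.PGroup.ZJ

variable {G : Type*} [Group G]

/-- No `S₄`-pattern in `L`. -/
def NoPat (L : Subgroup G) : Prop :=
  ∀ a ∈ L, ∀ b ∈ L, ∀ e ∈ L, ∀ f ∈ L, e * e = 1 → f * f = 1 → e * f = f * e → e ≠ 1 → f ≠ 1 → e ≠ f →
    a * e * a⁻¹ = e → a * f * a⁻¹ = e * f → b * f * b⁻¹ = f → b * e * b⁻¹ = e * f → False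

theorem noPat_of_not_involves [Finite G] {L : Subgroup G}
    (h : ¬ Cfsg.Involves (Equiv.Perm (Fin 4)) L) : NoPat L := by
  intro a ha b hb e he f hf he2 hf2 hef he1 hf1 hne h1 h2 h3 h4
  apply h
  refine Cfsg.Agent.Lib.PGroup.WeakClosureSFour.involves_of_two (e := (⟨e, he⟩ : L)) (f := ⟨f, hf⟩)
    (a := ⟨a, ha⟩) (b := ⟨b, hb⟩) (Subtype.ext he2) (Subtype.ext hf2) (Subtype.ext hef) ?_ ?_ ?_
    (Subtype.ext h1) (Subtype.ext h2) (Subtype.ext h3) (Subtype.ext h4)
  · exact fun h' => he1 (congrArg Subtype.val h')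
  · exact fun h' => hf1 (congrArg Subtype.val h')
  · exact fun h' => hne (congrArg Subtype.val h')

theorem NoPat.mono {L₁ L₂ : Subgroup G} (h : L₁ ≤ L₂) (hp : NoPat L₂) : NoPat L₁ :=
  fun a ha b hb e he f hf => hp a (h ha) b (h hb) e (h he) f (h hf)

theorem PP.sq {W : Subgroup G} (hW : PP 2 W) {x : G} (hx : x ∈ W) : x * x = 1 := by
  rw [← pow_two]; exact hW.2 x hx

/-- An element with `y⁴` and `y^m` (`m` odd) in `C` lies in `C`. -/
theorem mem_of_pow_four_odd {C : Subgroup G} {y : G} {m : ℕ} (hm : Odd m) (h4 : y ^ 4 ∈ C)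
    (hmC : y ^ m ∈ C) : y ∈ C := by
  obtain ⟨j, rfl⟩ := hm
  rcases Nat.even_or_odd' j with ⟨i, rfl | rfl⟩
  · have : y = y ^ (2 * (2 * i) + 1) * ((y ^ 4) ^ i)⁻¹ := by
      rw [← pow_mul, show 2 * (2 * i) + 1 = 4 * i + 1 by ring, pow_succ]
      simp [pow_add, mul_assoc]
      have : y ^ (4 * i) * (y * ((y ^ (4 * i))⁻¹)) = y := by
        rw [← mul_assoc, (Commute.pow_left (Commute.refl y) (4 * i)).eq, mul_assoc, mul_inv_cancel, mul_one]
      simpa using this.symm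
    rw [this]
    exact mul_mem hmC (inv_mem (pow_mem h4 i))
  · have : y = (y ^ 4) ^ (i + 1) * (y ^ (2 * (2 * i + 1) + 1))⁻¹ := by
      rw [← pow_mul, show 4 * (i + 1) = (2 * (2 * i + 1) + 1) + 1 by ring, pow_succ]
      have : y ^ (2 * (2 * i + 1) + 1) * y * (y ^ (2 * (2 * i + 1) + 1))⁻¹ = y := by
        rw [(Commute.pow_left (Commute.refl y) _).eq, mul_assoc, mul_inv_cancel, mul_one]
      exact this.symm
    rw [this]
    exact mul_mem (pow_mem h4 _) (inv_mem hmC)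

/-- The fourth power of the product is trivial when the two rank-one actions are "triangular". -/
theorem four_of_fix {W : Subgroup G} (hW : PP 2 W) {a b e f : G} (he : e ∈ W) (hf : f ∈ W)
    (ha : ∀ w ∈ W, a * w * a⁻¹ = w ∨ a * w * a⁻¹ = w * e)
    (hb : ∀ w ∈ W, b * w * b⁻¹ = w ∨ b * w * b⁻¹ = w * f)
    (hae : a * e * a⁻¹ = e) (haf : a * f * a⁻¹ = f) (hbf : b * f * b⁻¹ = f) (w : G) (hw : w ∈ W) :
    let c := a * b
    c * (c * (c * (c * w * c⁻¹) * c⁻¹) * c⁻¹) * c⁻¹ = w := by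
  intro c
  have hcmul : ∀ x y : G, c * (x * y) * c⁻¹ = (c * x * c⁻¹) * (c * y * c⁻¹) := by intro x y; group
  have hcv : ∀ x : G, c * x * c⁻¹ = a * (b * x * b⁻¹) * a⁻¹ := by intro x; simp only [c]; group
  have hcf : c * f * c⁻¹ = f := by rw [hcv, hbf, haf]
  have he2 := PP.sq hW he
  have hf2 := PP.sq hW hf
  have hef := hW.1 e he f hf
  have hce : c * e * c⁻¹ = e ∨ c * e * c⁻¹ = e * f := by
    rw [hcv]
    rcases hb e he with h | h
    · left; rw [h, hae]
    · right; rw [h, show a * (e * f) * a⁻¹ = (a * e * a⁻¹) * (a * f * a⁻¹) by group, hae, haf]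
  -- second power
  have h2 : c * (c * w * c⁻¹) * c⁻¹ = w ∨ c * (c * w * c⁻¹) * c⁻¹ = w * f := by
    have h1 : c * w * c⁻¹ = w ∨ c * w * c⁻¹ = w * e ∨ c * w * c⁻¹ = w * f ∨ c * w * c⁻¹ = w * (e * f) := by
      rw [hcv]
      rcases hb w hw with h | h <;> rcases ha w hw with h' | h'
      · left; rw [h, h']
      · right; left; rw [h, h']
      · right; right; left
        rw [h, show a * (w * f) * a⁻¹ = (a * w * a⁻¹) * (a * f * a⁻¹) by group, h', haf]
      · right; right; right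
        rw [h, show a * (w * f) * a⁻¹ = (a * w * a⁻¹) * (a * f * a⁻¹) by group, h', haf, mul_assoc]
    have hef2 : (e * f) * (e * f) = 1 := by
      calc (e * f) * (e * f) = e * (f * e) * f := by group
        _ = e * (e * f) * f := by rw [hef]
        _ = (e * e) * (f * f) := by group
        _ = 1 := by rw [he2, hf2, one_mul]
    rcases h1 with h | h | h | h
    · left; rw [h, h]
    · rw [h, hcmul, h]
      rcases hce with h' | h'
      · left; rw [h', mul_assoc, he2, mul_one]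
      · right; rw [h', mul_assoc, ← mul_assoc e e f, he2, one_mul]
    · rw [h, hcmul, h, hcf]; left; rw [mul_assoc, hf2, mul_one]
    · rw [h, hcmul, h, hcmul, hcf]
      rcases hce with h' | h'
      · left; rw [h', mul_assoc, hef2, mul_one]
      · right
        rw [h', mul_assoc, mul_assoc e f f, hf2, mul_one]
        congr 1
        calc e * f * e = e * (f * e) := by group
          _ = e * (e * f) := by rw [hef]
          _ = (e * e) * f := by group
          _ = f := by rw [he2, one_mul]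
  rcases h2 with h | h
  · rw [h, h]
  · have h4 : c * (c * (c * (c * w * c⁻¹) * c⁻¹) * c⁻¹) * c⁻¹ = c * (c * (w * f) * c⁻¹) * c⁻¹ := by rw [h]
    have h5 : c * (c * (w * f) * c⁻¹) * c⁻¹ = (c * (c * w * c⁻¹) * c⁻¹) * (c * (c * f * c⁻¹) * c⁻¹) := by group
    rw [h4, h5, h, hcf, hcf, mul_assoc, hf2, mul_one]

/-- Rank form gives that `e` is fixed. -/
theorem fix_of_rank {W : Subgroup G} (hW : PP 2 W) {a e : G} (he : e ∈ W)
    (ha : ∀ w ∈ W, a * w * a⁻¹ = w ∨ a * w * a⁻¹ = w * e) : a * e * a⁻¹ = e := by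
  rcases ha e he with h | h
  · exact h
  · rw [PP.sq hW he] at h
    have h1 : e = 1 := by
      have : a * e * a⁻¹ = a * 1 * a⁻¹ := by rw [h]; group
      simpa using this
    rw [h1]; group

/-- **Lemma T'**. -/
theorem trans_core {L W : Subgroup G} (hP : NoPat L) (hWL : W ≤ L) (hW : PP 2 W) {t y : G}
    (ht : t ∈ L) (hy : y ∈ L) (htN : t ∈ normalizer (W : Set G)) (hyN : y ∈ normalizer (W : Set G))
    (htt : ∀ w ∈ W, t * (t * w * t⁻¹) * t⁻¹ = w)
    (hty : ∀ w ∈ W, t * (y * w * y⁻¹) * t⁻¹ = y⁻¹ * (t * w * t⁻¹) * y)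
    {m : ℕ} (hm : Odd m) (hym : ∀ w ∈ W, y ^ m * w * (y ^ m)⁻¹ = w)
    (hrk : ∃ e ∈ W, ∀ w ∈ W, t * w * t⁻¹ = w ∨ t * w * t⁻¹ = w * e) :
    ∀ w ∈ W, y * w * y⁻¹ = w := by
  obtain ⟨e, he, hre⟩ := hrk
  obtain ⟨k, hk⟩ : ∃ k, m + 1 = 2 * k := by
    obtain ⟨j, rfl⟩ := hm
    exact ⟨j + 1, by ring⟩
  have htW : ∀ w ∈ W, t * w * t⁻¹ ∈ W := fun w hw => (mem_normalizer_iff.mp htN w).mp hw
  have hpN : ∀ j : ℕ, y ^ j ∈ normalizer (W : Set G) := fun j => pow_mem hyN j
  have hjW : ∀ (j : ℕ), ∀ w ∈ W, y ^ j * w * (y ^ j)⁻¹ ∈ W :=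
    fun j w hw => (mem_normalizer_iff.mp (hpN j) w).mp hw
  have hjW' : ∀ (j : ℕ), ∀ w ∈ W, (y ^ j)⁻¹ * w * y ^ j ∈ W := by
    intro j w hw
    have := (mem_normalizer_iff.mp (inv_mem (hpN j)) w).mp hw
    simpa using this
  have hty' : ∀ (j : ℕ), ∀ w ∈ W, t * (y ^ j * w * (y ^ j)⁻¹) * t⁻¹ = (y ^ j)⁻¹ * (t * w * t⁻¹) * y ^ j := by
    intro j
    induction j with
    | zero => intro w _; simp
    | succ j ih =>
      intro w hw
      have h1 : y ^ (j + 1) * w * (y ^ (j + 1))⁻¹ = y ^ j * (y * w * y⁻¹) * (y ^ j)⁻¹ := by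
        rw [pow_succ]; group
      have hyw : y * w * y⁻¹ ∈ W := (mem_normalizer_iff.mp hyN w).mp hw
      rw [h1, ih _ hyw, hty w hw, pow_succ]
      group
  set u := y ^ k with hu
  set b := u * t * u⁻¹ with hb
  have huW : ∀ w ∈ W, u * w * u⁻¹ ∈ W := hjW k
  have huW' : ∀ w ∈ W, u⁻¹ * w * u ∈ W := hjW' k
  have hbv : ∀ x : G, b * x * b⁻¹ = u * (t * (u⁻¹ * x * u) * t⁻¹) * u⁻¹ := by
    intro x; simp only [hb]; group
  set f := u * e * u⁻¹ with hf
  have hfW : f ∈ W := huW e he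
  have hrf : ∀ w ∈ W, b * w * b⁻¹ = w ∨ b * w * b⁻¹ = w * f := by
    intro w hw
    rw [hbv]
    rcases hre _ (huW' w hw) with h | h
    · left; rw [h]; group
    · right; rw [h, hf]; group
  have hbL : b ∈ L := mul_mem (mul_mem (pow_mem hy k) ht) (inv_mem (pow_mem hy k))
  have hbW : ∀ w ∈ W, b * w * b⁻¹ ∈ W := by
    intro w hw; rw [hbv]; exact huW _ (htW _ (huW' w hw))
  have hbb : ∀ w ∈ W, b * (b * w * b⁻¹) * b⁻¹ = w := by
    intro w hw
    rw [hbv, hbv]
    have h1 : u⁻¹ * (u * (t * (u⁻¹ * w * u) * t⁻¹) * u⁻¹) * u = t * (u⁻¹ * w * u) * t⁻¹ := by group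
    rw [h1, htt _ (huW' w hw)]
    group
  -- the product acts as `y⁻¹`
  have huu : u * u = y ^ m * y := by
    rw [hu, ← pow_add, ← pow_succ]; congr 1; omega
  have hab : ∀ w ∈ W, t * (b * w * b⁻¹) * t⁻¹ = y⁻¹ * w * y := by
    intro w hw
    rw [hbv]
    have hw₁W : t * (u⁻¹ * w * u) * t⁻¹ ∈ W := htW _ (huW' w hw)
    have hty'' : ∀ w ∈ W, t * (u * w * u⁻¹) * t⁻¹ = u⁻¹ * (t * w * t⁻¹) * u := hty' k
    rw [hty'' _ hw₁W, htt _ (huW' w hw)]
    have h2 : (y ^ m)⁻¹ * w * y ^ m = w := by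
      calc (y ^ m)⁻¹ * w * y ^ m = (y ^ m)⁻¹ * (y ^ m * w * (y ^ m)⁻¹) * y ^ m := by rw [hym w hw]
        _ = w := by group
    calc u⁻¹ * (u⁻¹ * w * u) * u = (u * u)⁻¹ * w * (u * u) := by group
      _ = (y ^ m * y)⁻¹ * w * (y ^ m * y) := by rw [huu]
      _ = y⁻¹ * ((y ^ m)⁻¹ * w * y ^ m) * y := by group
      _ = y⁻¹ * w * y := by rw [h2]
  have hyW : ∀ w ∈ W, y * w * y⁻¹ ∈ W := fun w hw => (mem_normalizer_iff.mp hyN w).mp hw
  have hba : ∀ w ∈ W, b * (t * w * t⁻¹) * b⁻¹ = y * w * y⁻¹ := by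
    intro w hw
    have h1 := hab _ (hyW w hw)
    have h2 : y⁻¹ * (y * w * y⁻¹) * y = w := by group
    rw [h2] at h1
    have h3 : b * (y * w * y⁻¹) * b⁻¹ = t * w * t⁻¹ := by
      have := htt _ (hbW _ (hyW w hw))
      rw [h1] at this; exact this.symm
    rw [← h3, hbb _ (hyW w hw)]
  have h4 : y ^ 4 ∈ centralizer (W : Set G) := by
    rw [mem_centralizer_iff]
    intro w hw
    have hfin : y ^ 4 * w * (y ^ 4)⁻¹ = w := by
      by_cases hfa : t * f * t⁻¹ = f
      · have h := four_of_fix hW he hfW hre hrf (fix_of_rank hW he hre) hfa (fix_of_rank hW hfW hrf)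
          (y ^ 4 * w * (y ^ 4)⁻¹) (by
            have := hjW 4 w hw; exact this)
        simp only at h
        have hc : ∀ x ∈ W, (t * b) * x * (t * b)⁻¹ = y⁻¹ * x * y := by
          intro x hx
          rw [← hab x hx]; group
        have hy4 := hjW 4 w hw
        have hiW : ∀ x ∈ W, y⁻¹ * x * y ∈ W := by
          intro x hx
          have := (mem_normalizer_iff.mp (inv_mem hyN) x).mp hx
          simpa using this
        rw [hc _ hy4, hc _ (hiW _ hy4), hc _ (hiW _ (hiW _ hy4)), hc _ (hiW _ (hiW _ (hiW _ hy4)))] at h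
        have hh : y⁻¹ * (y⁻¹ * (y⁻¹ * (y⁻¹ * (y ^ 4 * w * (y ^ 4)⁻¹) * y) * y) * y) * y = w := by
          simp only [pow_succ, pow_zero, one_mul]; group
        rw [hh] at h
        exact h.symm
      · by_cases heb : b * e * b⁻¹ = e
        · have h := four_of_fix hW hfW he hrf hre (fix_of_rank hW hfW hrf) heb (fix_of_rank hW he hre) w hw
          simp only at h
          have hc : ∀ x ∈ W, (b * t) * x * (b * t)⁻¹ = y * x * y⁻¹ := by
            intro x hx
            rw [← hba x hx]; group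
          rw [hc _ hw, hc _ (hyW _ hw), hc _ (hyW _ (hyW _ hw)), hc _ (hyW _ (hyW _ (hyW _ hw)))] at h
          have hh : y ^ 4 * w * (y ^ 4)⁻¹ = y * (y * (y * (y * w * y⁻¹) * y⁻¹) * y⁻¹) * y⁻¹ := by
            simp only [pow_succ, pow_zero, one_mul]; group
          rw [hh]; exact h
        · exfalso
          have h1 : t * f * t⁻¹ = f * e := (hre f hfW).resolve_left hfa
          have h2 : b * e * b⁻¹ = e * f := (hrf e he).resolve_left heb
          have hef := hW.1 e he f hfW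
          have hfixe := fix_of_rank hW he hre
          refine hP t ht b hbL e (hWL he) f (hWL hfW) (PP.sq hW he) (PP.sq hW hfW) hef ?_ ?_ ?_ hfixe
            (by rw [h1, hef]) (fix_of_rank hW hfW hrf) h2
          · intro h; apply hfa; rw [h1, h, mul_one]
          · intro h; apply heb; rw [h2, h, mul_one]
          · intro h; apply hfa; rw [← h]; exact hfixe
    calc w * y ^ 4 = (y ^ 4 * w * (y ^ 4)⁻¹) * y ^ 4 := by rw [hfin]
      _ = y ^ 4 * w := by group
  have hmC : y ^ m ∈ centralizer (W : Set G) := by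
    rw [mem_centralizer_iff]
    intro w hw
    calc w * y ^ m = (y ^ m * w * (y ^ m)⁻¹) * y ^ m := by rw [hym w hw]
      _ = y ^ m * w := by group
  have hyC := mem_of_pow_four_odd hm h4 hmC
  intro w hw
  have := mem_centralizer_iff.mp hyC w hw
  rw [← this]; group

/-- The rank form from a small index. -/
theorem rank_form [Finite G] {W : Subgroup G} (hW : PP 2 W) {t : G} (htN : t ∈ normalizer (W : Set G))
    (h : (centralizer ({t} : Set G)).relIndex W < 4) :
    ∃ e ∈ W, ∀ w ∈ W, t * w * t⁻¹ = w ∨ t * w * t⁻¹ = w * e := by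
  classical
  have htW : ∀ w ∈ W, t * w * t⁻¹ ∈ W := fun w hw => (mem_normalizer_iff.mp htN w).mp hw
  let φ : W →* W :=
    { toFun := fun w => ⟨(w : G)⁻¹ * (t * w * t⁻¹), mul_mem (inv_mem w.2) (htW _ w.2)⟩
      map_one' := by ext; simp
      map_mul' := by
        intro a b
        ext
        have h1 := hW.1 _ (htW _ a.2) _ (inv_mem b.2)
        show ((a : G) * b)⁻¹ * (t * (a * b) * t⁻¹) = (a : G)⁻¹ * (t * a * t⁻¹) * ((b : G)⁻¹ * (t * b * t⁻¹))
        calc ((a : G) * b)⁻¹ * (t * (a * b) * t⁻¹)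
            = (b : G)⁻¹ * (a : G)⁻¹ * ((t * a * t⁻¹) * (t * b * t⁻¹)) := by group
          _ = (a : G)⁻¹ * (b : G)⁻¹ * ((t * a * t⁻¹) * (t * b * t⁻¹)) := by
              rw [hW.1 _ (inv_mem b.2) _ (inv_mem a.2)]
          _ = (a : G)⁻¹ * ((b : G)⁻¹ * (t * a * t⁻¹)) * (t * b * t⁻¹) := by group
          _ = (a : G)⁻¹ * ((t * a * t⁻¹) * (b : G)⁻¹) * (t * b * t⁻¹) := by rw [← h1]
          _ = _ := by group }
  have hφ : ∀ w : W, ((φ w : W) : G) = (w : G)⁻¹ * (t * w * t⁻¹) := fun _ => rfl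
  have hker : φ.ker = (centralizer ({t} : Set G)).subgroupOf W := by
    ext w
    rw [MonoidHom.mem_ker, Subgroup.mem_subgroupOf, mem_centralizer_singleton_iff]
    constructor
    · intro h0
      have h1 : (w : G)⁻¹ * (t * w * t⁻¹) = 1 := by
        rw [← hφ, h0]; rfl
      have h2 : t * w * t⁻¹ = w := by
        rw [inv_mul_eq_one] at h1; exact h1.symm
      calc (w : G) * t = (t * w * t⁻¹) * t := by rw [h2]
        _ = t * w := by group
    · intro h0
      ext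
      rw [hφ]
      simp only [OneMemClass.coe_one]
      rw [inv_mul_eq_one, ← h0]; group
  have hcard : Nat.card φ.range = (centralizer ({t} : Set G)).relIndex W := by
    rw [Subgroup.relIndex, ← hker]
    exact (Nat.card_congr (QuotientGroup.quotientKerEquivRange φ).toEquiv).symm.trans rfl
  have hrange2 : IsPGroup 2 φ.range := by
    intro x
    refine ⟨1, ?_⟩
    ext
    simpa using hW.2 _ x.1.2
  by_cases h0 : ∀ w : W, φ w = 1
  · refine ⟨1, one_mem _, fun w hw => Or.inl ?_⟩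
    have h1 := hφ ⟨w, hw⟩
    rw [h0] at h1
    have h2 : (w : G)⁻¹ * (t * w * t⁻¹) = 1 := h1.symm
    rw [inv_mul_eq_one] at h2; exact h2.symm
  · push Not at h0
    obtain ⟨w₀, hw₀⟩ := h0
    refine ⟨(φ w₀ : W), (φ w₀).2, fun w hw => ?_⟩
    by_contra hcon
    push Not at hcon
    obtain ⟨hc1, hc2⟩ := hcon
    have hne1 : φ ⟨w, hw⟩ ≠ 1 := by
      intro h'
      apply hc1
      have h1 := hφ ⟨w, hw⟩
      rw [h'] at h1
      have h2 : (w : G)⁻¹ * (t * w * t⁻¹) = 1 := h1.symm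
      rw [inv_mul_eq_one] at h2; exact h2.symm
    have hne2 : φ ⟨w, hw⟩ ≠ φ w₀ := by
      intro h'
      apply hc2
      have h1 := hφ ⟨w, hw⟩
      rw [h'] at h1
      have h2 : (w : G)⁻¹ * (t * w * t⁻¹) = ((φ w₀ : W) : G) := h1.symm
      rw [← h2]; group
    haveI := Fintype.ofFinite φ.range
    have h3 : 3 ≤ Nat.card φ.range := by
      rw [Nat.card_eq_fintype_card]
      let s : Finset φ.range := {1, ⟨φ w₀, ⟨w₀, rfl⟩⟩, ⟨φ ⟨w, hw⟩, ⟨_, rfl⟩⟩}
      have hs : s.card = 3 := by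
        rw [Finset.card_eq_three]
        refine ⟨_, _, _, ?_, ?_, ?_, rfl⟩
        · intro h'; exact hw₀ (congrArg Subtype.val h').symm
        · intro h'; exact hne1 (congrArg Subtype.val h').symm
        · intro h'; exact hne2 (congrArg Subtype.val h').symm
      rw [← hs]; exact Finset.card_le_univ s
    obtain ⟨n, hn⟩ := IsPGroup.iff_card.mp hrange2
    rw [hcard] at hn
    rw [hcard] at h3
    have hn2 : 2 ≤ n := by
      by_contra hlt
      have : n = 0 ∨ n = 1 := by omega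
      rcases this with rfl | rfl <;> omega
    have : 2 ^ 2 ≤ 2 ^ n := Nat.pow_le_pow_right (by norm_num) hn2
    omega

end Cfsg.Agent.Lib.SFree
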