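import Mathlib
import Cfsg.Agent.Lib.SFree.Trans
import Cfsg.Agent.Lib.Coprime.GenerationE
import Cfsg.Agent.Lib.Solvable.Stability
import Cfsg.Agent.Lib.Coprime.PSolvable
import Cfsg.Agent.Lib.Basic.PCore
import Cfsg.Agent.Lib.Components.Transport
import Cfsg.Agent.Lib.Coprime.Three

/-!
# Hyperplane data for elementary abelian 2-groups acting on `O_{2'}`
-/

namespace Cfsg.Agent.Lib.SFree

open Subgroup Cfsg.Agent.Lib.PGroup.ZJ Cfsg.Agent.Lib.Coprime.GenerationE
open Cfsg.Agent.Lib.Basic.PCore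

section
variable {X : Type*} [Group X] [Finite X]

theorem hyperplane_of_relIndex {T B : Subgroup X} (hB : B.relIndex T ≤ 2) {t : X} (ht : t ∈ T)
    (htB : t ∉ B) : ∀ b ∈ T, b ∈ B ∨ b * t ∈ B := by
  have h2 : (B.subgroupOf T).index = 2 := by
    have h0 : (B.subgroupOf T).index ≠ 0 := Subgroup.index_ne_zero_of_finite
    have h1 : (B.subgroupOf T).index ≠ 1 := by
      intro h
      rw [Subgroup.index_eq_one] at h
      have : (⟨t, ht⟩ : T) ∈ B.subgroupOf T := by rw [h]; trivial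
      exact htB this
    have h3 : (B.subgroupOf T).index ≤ 2 := hB
    omega
  intro b hb
  have := Subgroup.mul_mem_iff_of_index_two h2 (a := ⟨b, hb⟩) (b := ⟨t, ht⟩)
  by_cases hbB : b ∈ B
  · exact Or.inl hbB
  · right
    have h4 : (⟨b, hb⟩ : T) * ⟨t, ht⟩ ∈ B.subgroupOf T := by
      rw [this]
      constructor
      · intro h; exact absurd h hbB
      · intro h; exact absurd h htB
    exact h4

theorem relIndex_two_of_hyperplane {T B : Subgroup X} (hBT : B ≤ T) {t : X} (ht : t ∈ T) (htB : t ∉ B)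
    (hy : ∀ b ∈ T, b ∈ B ∨ b * t ∈ B) : B.relIndex T = 2 := by
  show (B.subgroupOf T).index = 2
  rw [Subgroup.index_eq_two_iff]
  refine ⟨⟨t, ht⟩, fun b => ?_⟩
  rcases hy b b.2 with h | h
  · right
    refine ⟨h, fun h' => htB ?_⟩
    have h'' : (b : X) * t ∈ B := h'
    have := mul_mem (inv_mem h) h''
    simpa using this
  · by_cases hb : (b : X) ∈ B
    · right
      refine ⟨hb, fun h' => htB ?_⟩
      have h'' : (b : X) * t ∈ B := h'
      have := mul_mem (inv_mem hb) h''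
      simpa using this
    · left
      exact ⟨h, hb⟩

/-- Hyperplane data in the quotient. -/
theorem hyp_quot (hsol : Cfsg.IsPSolvable 2 X) (h0 : Cfsg.pCore 2 X = ⊥) {T : Subgroup X} (hT : PP 2 T)
    (hne : T ≠ ⊥) :
    ∃ B : Subgroup X, B ≤ T ∧ ∃ t ∈ T, t ∉ B ∧ (∀ b ∈ T, b ∈ B ∨ b * t ∈ B) ∧
      ∃ η ∈ Cfsg.pPrimeCore 2 X, η ≠ 1 ∧ (∀ b ∈ B, b * η = η * b) ∧ t * η * t⁻¹ = η⁻¹ := by
  classical
  haveI : Fact (Nat.Prime 2) := ⟨Nat.prime_two⟩
  set O := Cfsg.pPrimeCore 2 X with hO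
  have hOcop : (Nat.card O).Coprime 2 := by
    exact Cfsg.Agent.Lib.Components.Transport.coprime_card_pPrimeCore 2
  have hOnot : ¬ 2 ∣ Nat.card O := by
    intro h
    have := Nat.dvd_gcd h (dvd_refl 2)
    rw [hOcop.gcd_eq_one] at this
    omega
  have hTN : T ≤ normalizer (O : Set X) := by
    intro t _
    rw [mem_normalizer_iff]
    intro n
    constructor
    · intro h; exact (pPrimeCore_normal 2 X).conj_mem n h t
    · intro h
      have := (pPrimeCore_normal 2 X).conj_mem _ h t⁻¹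
      simpa [mul_assoc] using this
  have hgen := le_iSup_relIndex_le (p := 2) T O (PP_iff_elem.mp hT) hOnot hTN
  by_contra hcon
  push Not at hcon
  have hcent : O ≤ centralizer (T : Set X) := by
    refine hgen.trans (iSup_le fun B => ?_)
    rintro x ⟨hxO, hxC⟩
    rw [mem_centralizer_iff]
    intro t ht
    by_contra hne2
    obtain ⟨B, hBT, hBi⟩ := B
    have htB : t ∉ B := by
      intro h
      exact hne2 (mem_centralizer_iff.mp hxC t h)
    have hy := hyperplane_of_relIndex hBi ht htB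
    have hcomm : ∀ a ∈ B, ∀ b, a * b = b * a → a * b⁻¹ = b⁻¹ * a := by
      intro a _ b hb
      rw [eq_inv_mul_iff_mul_eq, ← mul_assoc, ← hb, mul_assoc, mul_inv_cancel, mul_one]
    have hxB : ∀ b ∈ B, b * x = x * b := fun b hb => mem_centralizer_iff.mp hxC b hb
    have hxB' : ∀ b ∈ B, b * x⁻¹ = x⁻¹ * b := fun b hb => hcomm b hb x (hxB b hb)
    have ht2 : t * t = 1 := PP.sq hT ht
    have ht1 : t⁻¹ = t := by rw [inv_eq_iff_mul_eq_one]; exact ht2
    refine hcon B hBT t ht htB hy (x⁻¹ * (t * x * t⁻¹)) ?_ ?_ ?_ ?_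
    · refine mul_mem (inv_mem hxO) ((pPrimeCore_normal 2 X).conj_mem x hxO t)
    · intro h
      apply hne2
      rw [inv_mul_eq_one] at h
      calc t * x = (t * x * t⁻¹) * t := by group
        _ = x * t := by rw [← h]
    · intro b hb
      have hbt : b * t = t * b := hT.1 b (hBT hb) t ht
      have hbt' : b * t⁻¹ = t⁻¹ * b := by rw [ht1]; exact hbt
      calc b * (x⁻¹ * (t * x * t⁻¹)) = (b * x⁻¹) * t * x * t⁻¹ := by group
        _ = x⁻¹ * (b * t) * x * t⁻¹ := by rw [hxB' b hb]; group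
        _ = x⁻¹ * t * (b * x) * t⁻¹ := by rw [hbt]; group
        _ = x⁻¹ * t * x * (b * t⁻¹) := by rw [hxB b hb]; group
        _ = x⁻¹ * t * x * (t⁻¹ * b) := by rw [hbt']
        _ = (x⁻¹ * (t * x * t⁻¹)) * b := by group
    · rw [ht1]
      calc t * (x⁻¹ * (t * x * t)) * t = t * x⁻¹ * (t * x) * (t * t) := by group
        _ = t * x⁻¹ * (t * x) := by rw [ht2]; group
        _ = (x⁻¹ * (t * x * t))⁻¹ := by
          have : t⁻¹ = t := ht1
          simp only [mul_inv_rev, inv_inv, this]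
          calc t * x⁻¹ * (t * x) = t * x⁻¹ * t * x := by group
            _ = _ := by group
  -- so `T` centralizes `O`, whence `T ≤ O` and then trivial
  have hTO : T ≤ O := by
    intro t ht
    apply Cfsg.Agent.Lib.Solvable.Stability.centralizer_pPrimeCore_le hsol h0
    rw [mem_centralizer_iff]
    intro o ho
    exact (mem_centralizer_iff.mp (hcent ho) t ht).symm
  apply hne
  rw [eq_bot_iff]
  intro t ht
  rw [mem_bot]
  have h2 : t ^ 2 = 1 := hT.2 t ht
  have ho : orderOf t ∣ Nat.card O := Subgroup.orderOf_dvd_natCard O (hTO ht)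
  have ho2 : orderOf t ∣ 2 := orderOf_dvd_of_pow_eq_one h2
  have : orderOf t ∣ 1 := by
    have := Nat.dvd_gcd ho ho2
    rwa [hOcop.gcd_eq_one] at this
  exact orderOf_eq_one_iff.mp (Nat.dvd_one.mp this)

/-- The subgroup generated by the hyperplane data. -/
def dataK (T O : Subgroup X) : Subgroup X :=
  closure {η | η ∈ O ∧ ∃ B : Subgroup X, B ≤ T ∧ ∃ t ∈ T, t ∉ B ∧ (∀ b ∈ T, b ∈ B ∨ b * t ∈ B) ∧
    (∀ b ∈ B, b * η = η * b) ∧ t * η * t⁻¹ = η⁻¹}

theorem dataK_le (T O : Subgroup X) : dataK T O ≤ O := by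
  rw [dataK, closure_le]
  exact fun _ h => h.1

theorem mem_dataK {T O : Subgroup X} {B : Subgroup X} (hB : B ≤ T) {t η : X} (ht : t ∈ T) (htB : t ∉ B)
    (hy : ∀ b ∈ T, b ∈ B ∨ b * t ∈ B) (hη : η ∈ O) (h1 : ∀ b ∈ B, b * η = η * b)
    (h2 : t * η * t⁻¹ = η⁻¹) : η ∈ dataK T O :=
  subset_closure ⟨hη, B, hB, t, ht, htB, hy, h1, h2⟩

/-- Properties of the commutator of an element centralized by a hyperplane. -/
theorem w_props {T B : Subgroup X} (hT : PP 2 T) (hBT : B ≤ T) {t x : X} (ht : t ∈ T)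
    (hxB : ∀ b ∈ B, b * x = x * b) :
    (∀ b ∈ B, b * (x⁻¹ * (t * x * t⁻¹)) = (x⁻¹ * (t * x * t⁻¹)) * b) ∧
      t * (x⁻¹ * (t * x * t⁻¹)) * t⁻¹ = (x⁻¹ * (t * x * t⁻¹))⁻¹ := by
  have ht2 : t * t = 1 := PP.sq hT ht
  have ht1 : t⁻¹ = t := by rw [inv_eq_iff_mul_eq_one]; exact ht2
  constructor
  · intro b hb
    have hbt : Commute b t := hT.1 b (hBT hb) t ht
    have hbx : Commute b x := hxB b hb
    have : Commute b (x⁻¹ * (t * x * t⁻¹)) :=
      hbx.inv_right.mul_right ((hbt.mul_right hbx).mul_right hbt.inv_right)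
    exact this
  · rw [ht1]
    calc t * (x⁻¹ * (t * x * t)) * t = t * x⁻¹ * t * x * (t * t) := by group
      _ = t * x⁻¹ * t * x := by rw [ht2]; group
      _ = (x⁻¹ * (t * x * t))⁻¹ := by
        simp only [mul_inv_rev, inv_inv, ht1]
        group

/-- **Lemma Gen**. -/
theorem gen_core {T O : Subgroup X} (hT : PP 2 T) (hO : ¬ 2 ∣ Nat.card O)
    (hTO : T ≤ normalizer (O : Set X)) :
    ∀ x ∈ O, ∀ t ∈ T, x⁻¹ * (t * x * t⁻¹) ∈ dataK T O := by
  classical
  haveI : Fact (Nat.Prime 2) := ⟨Nat.prime_two⟩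
  set K := dataK T O with hK
  have hgen := le_iSup_relIndex_le (p := 2) T O (PP_iff_elem.mp hT) hO hTO
  have hconj : ∀ t ∈ T, ∀ x ∈ O, t * x * t⁻¹ ∈ O :=
    fun t ht x hx => (mem_normalizer_iff.mp (hTO ht) x).mp hx
  -- the centralizer normalizes `K`
  have hCN : ∀ c ∈ O, c ∈ centralizer (T : Set X) → c ∈ normalizer (K : Set X) := by
    intro c hcO hcC
    apply Cfsg.Agent.Lib.Coprime.Three.mem_normalizer_of_conj_mem
    intro v hv
    induction hv using closure_induction with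
    | mem η hη =>
      obtain ⟨hηO, B, hBT, t, ht, htB, hy, h1, h2⟩ := hη
      have hcT : ∀ b ∈ T, b * c = c * b := fun b hb => mem_centralizer_iff.mp hcC b hb
      refine mem_dataK hBT ht htB hy (mul_mem (mul_mem hcO hηO) (inv_mem hcO)) ?_ ?_
      · intro b hb
        have hb' : Commute b c := hcT b (hBT hb)
        have hb1 : Commute b η := h1 b hb
        exact (hb'.mul_right hb1).mul_right hb'.inv_right
      · have ht' : t * c = c * t := hcT t ht
        calc t * (c * η * c⁻¹) * t⁻¹ = (t * c) * η * (t * c)⁻¹ := by group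
          _ = (c * t) * η * (c * t)⁻¹ := by rw [ht']
          _ = c * (t * η * t⁻¹) * c⁻¹ := by group
          _ = (c * η * c⁻¹)⁻¹ := by rw [h2]; group
    | one => simp
    | mul a b _ _ ha hb =>
      have : c * (a * b) * c⁻¹ = (c * a * c⁻¹) * (c * b * c⁻¹) := by group
      rw [this]; exact mul_mem ha hb
    | inv a _ ha =>
      have : c * a⁻¹ * c⁻¹ = (c * a * c⁻¹)⁻¹ := by group
      rw [this]; exact inv_mem ha
  have hKO : K ≤ O := dataK_le T O
  have hKN : K ≤ normalizer (K : Set X) := le_normalizer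
  have hA : ∀ B : Subgroup X, B ≤ T → B.relIndex T ≤ 2 → ∀ x ∈ O, x ∈ centralizer (B : Set X) →
      x ∈ normalizer (K : Set X) ∧ ∀ t ∈ T, x⁻¹ * (t * x * t⁻¹) ∈ K := by
    intro B hBT hBi x hxO hxC
    have hxB : ∀ b ∈ B, b * x = x * b := fun b hb => mem_centralizer_iff.mp hxC b hb
    by_cases hxT : x ∈ centralizer (T : Set X)
    · refine ⟨hCN x hxO hxT, fun t ht => ?_⟩
      have h1 : t * x = x * t := mem_centralizer_iff.mp hxT t ht
      have h2 : x⁻¹ * (t * x * t⁻¹) = 1 := by rw [h1]; group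
      rw [h2]; exact one_mem _
    · have hex : ∃ t₀ ∈ T, t₀ * x ≠ x * t₀ := by
        by_contra hcon
        push Not at hcon
        exact hxT (mem_centralizer_iff.mpr hcon)
      obtain ⟨t₀, ht₀, hne⟩ := hex
      have htB : t₀ ∉ B := fun h => hne (hxB t₀ h)
      have hy := hyperplane_of_relIndex hBi ht₀ htB
      obtain ⟨hw1, hw2⟩ := w_props hT hBT ht₀ hxB
      set w := x⁻¹ * (t₀ * x * t₀⁻¹) with hw
      have hwO : w ∈ O := mul_mem (inv_mem hxO) (hconj t₀ ht₀ x hxO)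
      have hwK : w ∈ K := mem_dataK hBT ht₀ htB hy hwO hw1 hw2
      have hxw : t₀ * x * t₀⁻¹ = x * w := by rw [hw]; group
      have hcomm2 : ∀ t ∈ T, t * x * t⁻¹ = x ∨ t * x * t⁻¹ = x * w := by
        intro t ht
        have ht0 : t₀⁻¹ = t₀ := by rw [inv_eq_iff_mul_eq_one]; exact PP.sq hT ht₀
        rcases hy t ht with h | h
        · left; rw [hxB t h]; group
        · right
          rw [← hxw]
          have hb1 : Commute (t * t₀) x := hxB _ h
          have hb2 : Commute (t * t₀) t₀ := hT.1 _ (hBT h) _ ht₀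
          have ht3 : t = (t * t₀) * t₀⁻¹ := by group
          set b := t * t₀ with hb
          rw [ht3]
          have h5 : b * t₀⁻¹ * x * (b * t₀⁻¹)⁻¹ = t₀⁻¹ * (b * x * b⁻¹) * t₀ := by
            have h6 : b * t₀⁻¹ = t₀⁻¹ * b := hb2.inv_right.eq
            rw [h6]; group
          rw [h5, hb1.eq, ht0]
          group
      refine ⟨?_, fun t ht => ?_⟩
      · -- decomposition `x = c * v⁻¹`
        obtain ⟨k, hk⟩ : ∃ k, k + k = orderOf w + 1 := by
          have h1 : orderOf w ∣ Nat.card O := Subgroup.orderOf_dvd_natCard O hwO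
          have h2 : ¬ 2 ∣ orderOf w := fun h => hO (h.trans h1)
          have h3 : Odd (orderOf w) := Nat.not_even_iff_odd.mp (fun h => h2 h.two_dvd)
          obtain ⟨j, hj⟩ := h3
          exact ⟨j + 1, by omega⟩
        set v := w ^ k with hv
        have hvv : v * v = w := by
          rw [hv, ← pow_add, hk, pow_succ, pow_orderOf_eq_one, one_mul]
        have hvK : v ∈ K := pow_mem hwK k
        have hvO : v ∈ O := hKO hvK
        have hvt : t₀ * v * t₀⁻¹ = v⁻¹ := by
          rw [hv, ← conj_pow, hw2, inv_pow]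
        have hvB : ∀ b ∈ B, b * v = v * b := by
          intro b hb
          have : Commute b w := hw1 b hb
          exact (this.pow_right k).eq
        have hcB : ∀ b ∈ B, b * (x * v) = (x * v) * b := by
          intro b hb
          have h1 : Commute b x := hxB b hb
          have h2 : Commute b v := hvB b hb
          exact (h1.mul_right h2).eq
        have hct : t₀ * (x * v) = (x * v) * t₀ := by
          have h1 : t₀ * (x * v) * t₀⁻¹ = x * v := by
            calc t₀ * (x * v) * t₀⁻¹ = (t₀ * x * t₀⁻¹) * (t₀ * v * t₀⁻¹) := by group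
              _ = x * (v * v) * v⁻¹ := by rw [hxw, hvt, hvv]
              _ = x * v := by group
          calc t₀ * (x * v) = (t₀ * (x * v) * t₀⁻¹) * t₀ := by group
            _ = _ := by rw [h1]
        have hcC : x * v ∈ centralizer (T : Set X) := by
          rw [mem_centralizer_iff]
          intro b hb
          rcases hy b hb with h | h
          · exact hcB b h
          · have h1 := hcB _ h
            have h2 : b * (x * v) * t₀ = (x * v) * b * t₀ := by
              calc b * (x * v) * t₀ = b * ((x * v) * t₀) := by group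
                _ = b * (t₀ * (x * v)) := by rw [hct]
                _ = (b * t₀) * (x * v) := by group
                _ = (x * v) * (b * t₀) := h1
                _ = _ := by group
            exact mul_right_cancel h2
        have hx2 : x = (x * v) * v⁻¹ := by group
        rw [hx2]
        exact mul_mem (hCN _ (mul_mem hxO hvO) hcC) (inv_mem (hKN hvK))
      · rcases hcomm2 t ht with h | h
        · rw [h]; simp
        · rw [h]
          have : x⁻¹ * (x * w) = w := by group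
          rw [this]; exact hwK
  have hON : O ≤ normalizer (K : Set X) := by
    refine hgen.trans (iSup_le fun B => ?_)
    rintro x ⟨hxO, hxC⟩
    exact (hA B.1 B.2.1 B.2.2 x hxO hxC).1
  let F : Subgroup X :=
    { carrier := {x | x ∈ O ∧ ∀ t ∈ T, x⁻¹ * (t * x * t⁻¹) ∈ K}
      mul_mem' := by
        rintro x₁ x₂ ⟨h1, h2⟩ ⟨h3, h4⟩
        refine ⟨mul_mem h1 h3, fun t ht => ?_⟩
        have h5 : (x₁ * x₂)⁻¹ * (t * (x₁ * x₂) * t⁻¹)
            = (x₂⁻¹ * (x₁⁻¹ * (t * x₁ * t⁻¹)) * x₂⁻¹⁻¹) * (x₂⁻¹ * (t * x₂ * t⁻¹)) := by group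
        rw [h5]
        refine mul_mem ?_ (h4 t ht)
        exact (mem_normalizer_iff.mp (inv_mem (hON h3)) _).mp (h2 t ht)
      one_mem' := ⟨one_mem _, fun t _ => by simp⟩
      inv_mem' := by
        rintro x ⟨h1, h2⟩
        refine ⟨inv_mem h1, fun t ht => ?_⟩
        have h3 := h2 t ht
        have h5 : (x⁻¹)⁻¹ * (t * x⁻¹ * t⁻¹) = x * (x⁻¹ * (t * x * t⁻¹))⁻¹ * x⁻¹ := by group
        rw [h5]
        exact (mem_normalizer_iff.mp (hON h1) _).mp (inv_mem h3) }
  have hOF : O ≤ F := by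
    refine hgen.trans (iSup_le fun B => ?_)
    rintro x ⟨hxO, hxC⟩
    exact ⟨hxO, (hA B.1 B.2.1 B.2.2 x hxO hxC).2⟩
  intro x hx t ht
  exact (hOF hx).2 t ht

end

/-! ### Pull-back to an ambient group -/

section
variable {G : Type*} [Group G] [Finite G]

/-- **PHyp**: pull-back form of the hyperplane data. -/
theorem phyp {L K B : Subgroup G} (hKL : K ≤ L) [hKn : (K.subgroupOf L).Normal]
    (hsol : Cfsg.IsPSolvable 2 (↥L ⧸ K.subgroupOf L))
    (h0 : Cfsg.pCore 2 (↥L ⧸ K.subgroupOf L) = ⊥) (hBL : B ≤ L)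
    (hcomm : ∀ a ∈ B, ∀ b ∈ B, a * b * a⁻¹ * b⁻¹ ∈ K) (hsq : ∀ a ∈ B, a * a ∈ K) (hne : ¬ B ≤ K) :
    ∃ B' : Subgroup G, B' ≤ B ∧ K ⊓ B ≤ B' ∧ ∃ t ∈ B, t ∉ B' ∧ (∀ b ∈ B, b ∈ B' ∨ b * t ∈ B') ∧
      ∃ y ∈ L, y ∉ K ∧ (∃ m : ℕ, Odd m ∧ y ^ m ∈ K) ∧ (∀ b ∈ B', b * y * b⁻¹ * y⁻¹ ∈ K) ∧
        t * y * t⁻¹ * y ∈ K := by
  classical
  set π := QuotientGroup.mk' (K.subgroupOf L) with hπ
  have hπs : Function.Surjective π := QuotientGroup.mk'_surjective _
  have hker : ∀ g : L, π g = 1 ↔ (g : G) ∈ K := by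
    intro g
    rw [hπ, QuotientGroup.mk'_apply, QuotientGroup.eq_one_iff]
    rfl
  set T := (B.subgroupOf L).map π with hT
  have hTmem : ∀ b (hb : b ∈ B), π ⟨b, hBL hb⟩ ∈ T := fun b hb => ⟨⟨b, hBL hb⟩, hb, rfl⟩
  have hTel : PP 2 T := by
    constructor
    · rintro _ ⟨a, ha, rfl⟩ _ ⟨b, hb, rfl⟩
      have h1 := hcomm a ha b hb
      have h2 : π (a * b * a⁻¹ * b⁻¹) = 1 := (hker _).mpr h1
      rw [← map_mul, ← map_mul]
      simp only [map_mul, map_inv] at h2 ⊢
      rw [mul_inv_eq_one, mul_inv_eq_iff_eq_mul] at h2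
      exact h2
    · rintro _ ⟨a, ha, rfl⟩
      have h1 := hsq a ha
      have h2 : π (a * a) = 1 := (hker _).mpr h1
      rw [← map_pow, pow_two]
      exact h2
  have hTne : T ≠ ⊥ := by
    intro h
    apply hne
    intro b hb
    have h1 := hTmem b hb
    rw [h, mem_bot] at h1
    exact (hker ⟨b, hBL hb⟩).mp h1
  obtain ⟨C, hCT, tb, htb, htbC, hy, η, hηO, hη1, hηC, hηt⟩ := hyp_quot hsol h0 hTel hTne
  obtain ⟨t, ht, rfl⟩ := htb
  have htB : (t : G) ∈ B := ht
  refine ⟨(C.comap π).map L.subtype ⊓ B, inf_le_right, ?_, t, htB, ?_, ?_, ?_⟩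
  · rintro x ⟨hxK, hxB⟩
    refine ⟨⟨⟨x, hBL hxB⟩, ?_, rfl⟩, hxB⟩
    show π ⟨x, hBL hxB⟩ ∈ C
    rw [(hker ⟨x, hBL hxB⟩).mpr hxK]
    exact one_mem _
  · rintro ⟨⟨g, hg, hgt⟩, -⟩
    have : g = t := Subtype.ext hgt
    rw [this] at hg
    exact htbC hg
  · intro b hb
    rcases hy (π ⟨b, hBL hb⟩) (hTmem b hb) with h | h
    · left; exact ⟨⟨⟨b, hBL hb⟩, h, rfl⟩, hb⟩
    · right
      refine ⟨⟨⟨b, hBL hb⟩ * t, ?_, rfl⟩, mul_mem hb htB⟩
      show π (⟨b, hBL hb⟩ * t) ∈ C
      rw [map_mul]; exact h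
  · obtain ⟨y, rfl⟩ := hπs η
    refine ⟨y, y.2, ?_, ?_, ?_, ?_⟩
    · intro h
      exact hη1 ((hker y).mpr h)
    · refine ⟨orderOf (π y), ?_, ?_⟩
      · have hOcop : (Nat.card (Cfsg.pPrimeCore 2 (↥L ⧸ K.subgroupOf L))).Coprime 2 :=
          Cfsg.Agent.Lib.Components.Transport.coprime_card_pPrimeCore 2
        have h1 := Subgroup.orderOf_dvd_natCard _ hηO
        have h2 : (orderOf (π y)).Coprime 2 := Nat.Coprime.coprime_dvd_left h1 hOcop
        exact Nat.coprime_two_right.mp h2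
      · have h1 : π (y ^ orderOf (π y)) = 1 := by rw [map_pow, pow_orderOf_eq_one]
        have := (hker _).mp h1
        simpa using this
    · rintro b ⟨⟨g, hg, rfl⟩, hbB⟩
      have h1 := hηC (π g) hg
      have h2 : π (g * y * g⁻¹ * y⁻¹) = 1 := by
        simp only [map_mul, map_inv]
        rw [h1]; group
      simpa using (hker _).mp h2
    · have h2 : π (t * y * t⁻¹ * y) = 1 := by
        simp only [map_mul, map_inv]
        rw [hηt]; group
      simpa using (hker _).mp h2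

end

end Cfsg.Agent.Lib.SFree
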