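import Mathlib
import Cfsg.Agent.Lib.SFree.Trans
import Cfsg.Agent.Lib.Coprime.Three

/-!
# The norm of an odd-order automorphism on an elementary abelian group
-/

namespace Cfsg.Agent.Lib.SFree

open Subgroup Cfsg.Agent.Lib.PGroup.ZJ
open scoped commutatorElement

variable {G : Type*} [Group G]

/-- The (partial) norm. -/
def nrm (y v : G) : ℕ → G
  | 0 => 1
  | n + 1 => nrm y v n * (y ^ n * v * (y ^ n)⁻¹)

@[simp] theorem nrm_zero (y v : G) : nrm y v 0 = 1 := rfl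
theorem nrm_succ (y v : G) (n : ℕ) : nrm y v (n + 1) = nrm y v n * (y ^ n * v * (y ^ n)⁻¹) := rfl

section
variable {W : Subgroup G} {y : G}

theorem pow_conj_mem (hy : y ∈ normalizer (W : Set G)) (n : ℕ) {v : G} (hv : v ∈ W) :
    y ^ n * v * (y ^ n)⁻¹ ∈ W :=
  (mem_normalizer_iff.mp (pow_mem hy n) v).mp hv

theorem nrm_mem (hy : y ∈ normalizer (W : Set G)) {v : G} (hv : v ∈ W) (n : ℕ) : nrm y v n ∈ W := by
  induction n with
  | zero => exact one_mem _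
  | succ n ih => exact mul_mem ih (pow_conj_mem hy n hv)

theorem nrm_mul (hW : PP 2 W) (hy : y ∈ normalizer (W : Set G)) {v w : G} (hv : v ∈ W) (hw : w ∈ W)
    (n : ℕ) : nrm y (v * w) n = nrm y v n * nrm y w n := by
  induction n with
  | zero => simp
  | succ n ih =>
    rw [nrm_succ, nrm_succ, nrm_succ, ih]
    have h1 : y ^ n * (v * w) * (y ^ n)⁻¹ = (y ^ n * v * (y ^ n)⁻¹) * (y ^ n * w * (y ^ n)⁻¹) := by group
    rw [h1]
    have h2 := hW.1 _ (nrm_mem hy hw n) _ (pow_conj_mem hy n hv)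
    calc nrm y v n * nrm y w n * ((y ^ n * v * (y ^ n)⁻¹) * (y ^ n * w * (y ^ n)⁻¹))
        = nrm y v n * (nrm y w n * (y ^ n * v * (y ^ n)⁻¹)) * (y ^ n * w * (y ^ n)⁻¹) := by group
      _ = nrm y v n * ((y ^ n * v * (y ^ n)⁻¹) * nrm y w n) * (y ^ n * w * (y ^ n)⁻¹) := by rw [h2]
      _ = _ := by group

theorem nrm_one (y : G) (n : ℕ) : nrm y (1 : G) n = 1 := by
  induction n with
  | zero => rfl
  | succ n ih => rw [nrm_succ, ih]; simp

theorem nrm_inv (hW : PP 2 W) (hy : y ∈ normalizer (W : Set G)) {v : G} (hv : v ∈ W) (n : ℕ) :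
    nrm y v⁻¹ n = (nrm y v n)⁻¹ := by
  have h := nrm_mul hW hy hv (inv_mem hv) n
  rw [mul_inv_cancel, nrm_one] at h
  exact (inv_eq_of_mul_eq_one_right h.symm).symm

/-- Conjugation commuting with the action. -/
theorem conj_nrm (g : G) {v : G} (n : ℕ)
    (hg : ∀ i, g * (y ^ i * v * (y ^ i)⁻¹) * g⁻¹ = y ^ i * (g * v * g⁻¹) * (y ^ i)⁻¹) :
    g * nrm y v n * g⁻¹ = nrm y (g * v * g⁻¹) n := by
  induction n with
  | zero => simp
  | succ n ih =>
    rw [nrm_succ, nrm_succ, ← ih, ← hg n]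
    group

theorem conj_nrm_self (v : G) (n : ℕ) : y * nrm y v n * y⁻¹ = nrm y (y * v * y⁻¹) n := by
  refine conj_nrm y n fun i => ?_
  have h : y * y ^ i = y ^ i * y := (Commute.refl y).pow_right i
  calc y * (y ^ i * v * (y ^ i)⁻¹) * y⁻¹ = (y * y ^ i) * v * (y * y ^ i)⁻¹ := by group
    _ = (y ^ i * y) * v * (y ^ i * y)⁻¹ := by rw [h]
    _ = _ := by group

/-- Telescoping. -/
theorem nrm_shift (hW : PP 2 W) (hy : y ∈ normalizer (W : Set G)) {v : G} (hv : v ∈ W) (n : ℕ) :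
    nrm y (y * v * y⁻¹) n * v = nrm y v n * (y ^ n * v * (y ^ n)⁻¹) := by
  induction n with
  | zero => simp
  | succ n ih =>
    rw [nrm_succ, nrm_succ]
    have h1 : y ^ n * (y * v * y⁻¹) * (y ^ n)⁻¹ = y ^ (n + 1) * v * (y ^ (n + 1))⁻¹ := by
      rw [pow_succ]; group
    rw [h1]
    have h2 := hW.1 _ (pow_conj_mem hy (n + 1) hv) _ hv
    calc nrm y (y * v * y⁻¹) n * (y ^ (n + 1) * v * (y ^ (n + 1))⁻¹) * v
        = nrm y (y * v * y⁻¹) n * ((y ^ (n + 1) * v * (y ^ (n + 1))⁻¹) * v) := by group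
      _ = nrm y (y * v * y⁻¹) n * (v * (y ^ (n + 1) * v * (y ^ (n + 1))⁻¹)) := by rw [h2]
      _ = (nrm y (y * v * y⁻¹) n * v) * (y ^ (n + 1) * v * (y ^ (n + 1))⁻¹) := by group
      _ = _ := by rw [ih]

theorem nrm_shift_m (hW : PP 2 W) (hy : y ∈ normalizer (W : Set G)) {m : ℕ}
    (hym : ∀ w ∈ W, y ^ m * w * (y ^ m)⁻¹ = w) {v : G} (hv : v ∈ W) :
    nrm y (y * v * y⁻¹) m = nrm y v m := by
  have := nrm_shift hW hy hv m
  rw [hym v hv] at this
  exact mul_right_cancel this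

theorem nrm_fixed {v : G} (h : y * v * y⁻¹ = v) (n : ℕ) :
    nrm y v n = v ^ n := by
  have h1 : ∀ i : ℕ, y ^ i * v * (y ^ i)⁻¹ = v := by
    intro i
    induction i with
    | zero => simp
    | succ i ih =>
      rw [pow_succ]
      calc y ^ i * y * v * (y ^ i * y)⁻¹ = y ^ i * (y * v * y⁻¹) * (y ^ i)⁻¹ := by group
        _ = v := by rw [h, ih]
  induction n with
  | zero => simp
  | succ n ih =>
    rw [nrm_succ, ih, h1, pow_succ]

theorem odd_pow_of_sq {v : G} (hv : v * v = 1) {m : ℕ} (hm : Odd m) : v ^ m = v := by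
  obtain ⟨j, rfl⟩ := hm
  rw [pow_succ, pow_mul, pow_two, hv, one_pow, one_mul]

/-- The kernel of the norm. -/
def nrmKer (W : Subgroup G) (y : G) (m : ℕ) (hW : PP 2 W) (hy : y ∈ normalizer (W : Set G)) : Subgroup G where
  carrier := {v | v ∈ W ∧ nrm y v m = 1}
  mul_mem' := by
    rintro a b ⟨h1, h2⟩ ⟨h3, h4⟩
    exact ⟨mul_mem h1 h3, by rw [nrm_mul hW hy h1 h3, h2, h4, one_mul]⟩
  one_mem' := by
    refine ⟨one_mem _, ?_⟩
    exact nrm_one y m
  inv_mem' := by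
    rintro a ⟨h1, h2⟩
    exact ⟨inv_mem h1, by rw [nrm_inv hW hy h1, h2, inv_one]⟩

theorem mem_nrmKer {m : ℕ} {hW : PP 2 W} {hy : y ∈ normalizer (W : Set G)} {v : G} :
    v ∈ nrmKer W y m hW hy ↔ v ∈ W ∧ nrm y v m = 1 := Iff.rfl

/-- The norm is `y`-fixed. -/
theorem conj_nrm_eq (hW : PP 2 W) (hy : y ∈ normalizer (W : Set G)) {m : ℕ}
    (hym : ∀ w ∈ W, y ^ m * w * (y ^ m)⁻¹ = w) {v : G} (hv : v ∈ W) :
    y * nrm y v m * y⁻¹ = nrm y v m := by
  rw [conj_nrm_self, nrm_shift_m hW hy hym hv]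

/-- Commutators lie in the kernel. -/
theorem comm_mem_nrmKer (hW : PP 2 W) (hy : y ∈ normalizer (W : Set G)) {m : ℕ}
    (hym : ∀ w ∈ W, y ^ m * w * (y ^ m)⁻¹ = w) {v : G} (hv : v ∈ W) :
    v⁻¹ * (y * v * y⁻¹) ∈ nrmKer W y m hW hy := by
  have hyv : y * v * y⁻¹ ∈ W := (mem_normalizer_iff.mp hy v).mp hv
  refine ⟨mul_mem (inv_mem hv) hyv, ?_⟩
  rw [nrm_mul hW hy (inv_mem hv) hyv, nrm_inv hW hy hv, nrm_shift_m hW hy hym hv]
  group

/-- The norm of a `y`-fixed element of odd degree. -/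
theorem nrm_of_fixed (hW : PP 2 W) {m : ℕ} (hm : Odd m) {v : G} (hv : v ∈ W) (h : y * v * y⁻¹ = v) :
    nrm y v m = v := by
  rw [nrm_fixed h m]
  exact odd_pow_of_sq (PP.sq hW hv) hm

end

section
variable [Finite G]

/-- **Fixed-point lemma**: a 2-group normalizing `W`, with an action commuting with `y`, centralizes
an element of `W` not fixed by `y` if `y` is nontrivial on `W`. -/
theorem exists_fixed_of_two_group {W P : Subgroup G} {y : G} (hW : PP 2 W) (hWp : IsPGroup 2 W)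
    (hPp : IsPGroup 2 P) (hPW : P ≤ normalizer (W : Set G)) (hy : y ∈ normalizer (W : Set G)) {m : ℕ}
    (hm : Odd m) (hym : ∀ w ∈ W, y ^ m * w * (y ^ m)⁻¹ = w)
    (hPy : ∀ p ∈ P, ∀ w ∈ W, p * (y * w * y⁻¹) * p⁻¹ = y * (p * w * p⁻¹) * y⁻¹)
    {v : G} (hv : v ∈ W) (hvy : y * v * y⁻¹ ≠ v) :
    ∃ z ∈ W, z ∈ centralizer (P : Set G) ∧ y * z * y⁻¹ ≠ z := by
  classical
  haveI : Fact (Nat.Prime 2) := ⟨Nat.prime_two⟩
  set M := nrmKer W y m hW hy with hM
  have hPiter : ∀ p ∈ P, ∀ (i : ℕ), ∀ w ∈ W,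
      p * (y ^ i * w * (y ^ i)⁻¹) * p⁻¹ = y ^ i * (p * w * p⁻¹) * (y ^ i)⁻¹ := by
    intro p hp i
    induction i with
    | zero => intro w _; simp
    | succ i ih =>
      intro w hw
      have h1 : y ^ (i + 1) * w * (y ^ (i + 1))⁻¹ = y ^ i * (y * w * y⁻¹) * (y ^ i)⁻¹ := by
        rw [pow_succ]; group
      have hyw : y * w * y⁻¹ ∈ W := (mem_normalizer_iff.mp hy w).mp hw
      rw [h1, ih _ hyw, hPy p hp w hw, pow_succ]
      group
  have hS : IsPGroup 2 (P ⊔ W : Subgroup G) := by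
    apply IsPGroup.to_sup_of_normal_right' hPp hWp hPW
  have hMn : ∀ s ∈ (P ⊔ W : Subgroup G), ∀ w ∈ M, s * w * s⁻¹ ∈ M := by
    have hPM : ∀ p ∈ P, ∀ w ∈ M, p * w * p⁻¹ ∈ M := by
      rintro p hp w ⟨hw1, hw2⟩
      have hpw : p * w * p⁻¹ ∈ W := (mem_normalizer_iff.mp (hPW hp) w).mp hw1
      refine ⟨hpw, ?_⟩
      rw [← conj_nrm p m (fun i => hPiter p hp i w hw1), hw2]
      group
    have hWM : ∀ a ∈ W, ∀ w ∈ M, a * w * a⁻¹ ∈ M := by
      intro a ha w hw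
      have h1 := hW.1 a ha w hw.1
      rw [h1]
      simpa using hw
    intro s hs w hw
    have hN : (P ⊔ W : Subgroup G) ≤ normalizer (M : Set G) := by
      rw [sup_le_iff]
      constructor
      · intro p hp
        apply Cfsg.Agent.Lib.Coprime.Three.mem_normalizer_of_conj_mem
        exact hPM p hp
      · intro a ha
        apply Cfsg.Agent.Lib.Coprime.Three.mem_normalizer_of_conj_mem
        exact hWM a ha
    exact (mem_normalizer_iff.mp (hN hs) w).mp hw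
  have hMW : M ≤ W := fun x hx => hx.1
  have hMne : ¬ M ≤ ⊥ := by
    intro h
    have h1 := h (comm_mem_nrmKer hW hy hym hv)
    rw [mem_bot, inv_mul_eq_one] at h1
    exact hvy h1.symm
  obtain ⟨z, hzM, hz1, hzc⟩ := exists_central_mod hS (V := ⊥)
    (fun s _ v hv => by rw [mem_bot] at hv ⊢; rw [hv]; group) hMn (hMW.trans le_sup_right) hMne
  refine ⟨z, hMW hzM, ?_, ?_⟩
  · rw [mem_centralizer_iff]
    intro p hp
    have h1 := hzc p (le_sup_left (a := P) (b := W) hp)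
    rw [mem_bot, commutatorElement_eq_one_iff_mul_comm] at h1
    exact h1.symm
  · intro h
    have h1 := nrm_of_fixed hW hm (hMW hzM) h
    rw [hzM.2] at h1
    exact hz1 (by rw [mem_bot]; exact h1.symm)

end

end Cfsg.Agent.Lib.SFree
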