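import Mathlib
import Cfsg.Agent.Lib.SFree.Hyp
import Cfsg.Agent.Lib.SFree.Norm

/-!
# Thinness of normal elementary abelian subgroups
-/

namespace Cfsg.Agent.Lib.SFree

open Subgroup Cfsg.Agent.Lib.PGroup.ZJ
open Cfsg.Agent.Lib.Basic.PCore
open scoped commutatorElement

variable {G : Type*} [Group G] [Finite G]

omit [Finite G] in
theorem relIndex_hyperplane {H B' B : Subgroup G} (h1 : H ⊓ B ≤ B') (h2 : B' ≤ B) :
    H.relIndex B = H.relIndex B' * B'.relIndex B := by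
  have h3 := Subgroup.relIndex_mul_relIndex (H ⊓ B) B' B h1 h2
  have h4 : (H ⊓ B).relIndex B = H.relIndex B := Subgroup.inf_relIndex_right H B
  have h5 : (H ⊓ B).relIndex B' = H.relIndex B' := by
    rw [← Subgroup.inf_relIndex_right (H ⊓ B) B', ← Subgroup.inf_relIndex_right H B']
    congr 1
    ext x
    simp only [mem_inf]
    constructor
    · rintro ⟨⟨a, _⟩, c⟩; exact ⟨a, c⟩
    · rintro ⟨a, c⟩; exact ⟨⟨a, h2 c⟩, c⟩
  rw [← h4, ← h3, h5]

/-- **Thin core**. -/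
theorem thin_core {L V K : Subgroup G} (hP : NoPat L) (hVL : V ≤ L) (hV : PP 2 V) (hVp : IsPGroup 2 V)
    (hLN : L ≤ normalizer (V : Set G)) (hK : K = L ⊓ centralizer (V : Set G))
    [(K.subgroupOf L).Normal] (hsol : Cfsg.IsPSolvable 2 (↥L ⧸ K.subgroupOf L))
    (h0 : Cfsg.pCore 2 (↥L ⧸ K.subgroupOf L) = ⊥) :
    ∀ B : Subgroup G, B ≤ L → IsPGroup 2 B → (∀ a ∈ B, ∀ b ∈ B, a * b * a⁻¹ * b⁻¹ ∈ K) →
      (∀ a ∈ B, a * a ∈ K) → (K.relIndex B) ^ 2 ≤ (centralizer (B : Set G)).relIndex V := by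
  classical
  haveI : Fact (Nat.Prime 2) := ⟨Nat.prime_two⟩
  have hKL : K ≤ L := by rw [hK]; exact inf_le_left
  have hact : ∀ c ∈ K, ∀ v ∈ V, c * v * c⁻¹ = v := by
    intro c hc v hv
    rw [hK] at hc
    have := mem_centralizer_iff.mp hc.2 v hv
    rw [← this]; group
  intro B
  induction hn : Nat.card B using Nat.strong_induction_on generalizing B with
  | _ n ih =>
  intro hBL hBp hcomm hsq
  by_cases hBK : B ≤ K
  · have h1 : K.relIndex B = 1 := Subgroup.relIndex_eq_one.mpr hBK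
    rw [h1]
    have h2 : (centralizer (B : Set G)).relIndex V ≠ 0 := Subgroup.index_ne_zero_of_finite
    rw [one_pow]
    exact Nat.one_le_iff_ne_zero.mpr h2
  obtain ⟨B', hB'B, hKB', t, htB, htB', hy, y, hyL, hyK, ⟨m, hm, hymK⟩, hyB', hty⟩ :=
    phyp hKL hsol h0 hBL hcomm hsq hBK
  have hB'L : B' ≤ L := hB'B.trans hBL
  have hcard : Nat.card B' < Nat.card B := by
    by_contra hge
    push Not at hge
    have := Subgroup.eq_of_le_of_card_ge hB'B hge
    exact htB' (this ▸ htB)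
  have hIH := ih _ (hn ▸ hcard) B' rfl hB'L (hBp.to_le hB'B)
    (fun a ha b hb => hcomm a (hB'B ha) b (hB'B hb)) (fun a ha => hsq a (hB'B ha))
  have htL : t ∈ L := hBL htB
  have hVn : ∀ g ∈ L, ∀ v ∈ V, g * v * g⁻¹ ∈ V :=
    fun g hg v hv => (mem_normalizer_iff.mp (hLN hg) v).mp hv
  set V₁ := centralizer (B' : Set G) ⊓ V with hV₁
  have hmemV₁ : ∀ v, v ∈ V₁ ↔ (∀ b ∈ B', b * v = v * b) ∧ v ∈ V := by
    intro v
    rw [hV₁, mem_inf, mem_centralizer_iff]
    exact Iff.rfl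
  have hV₁V : V₁ ≤ V := inf_le_right
  have hV₁el : PP 2 V₁ :=
    ⟨fun a ha b hb => hV.1 a (hV₁V ha) b (hV₁V hb), fun a ha => hV.2 a (hV₁V ha)⟩
  have hpres : ∀ g ∈ L, (∀ b ∈ B', b * g * b⁻¹ * g⁻¹ ∈ K) → g ∈ normalizer (V₁ : Set G) := by
    intro g hg hgb
    apply Cfsg.Agent.Lib.Coprime.Three.mem_normalizer_of_conj_mem
    intro v hv
    obtain ⟨hv1, hv2⟩ := (hmemV₁ v).mp hv
    refine (hmemV₁ _).mpr ⟨fun b hb => ?_, hVn g hg v hv2⟩
    have h1 := hact _ (hgb b hb) _ (hVn g hg v hv2)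
    have h2 : b * v * b⁻¹ = v := by rw [hv1 b hb]; group
    have h3 : b * (g * v * g⁻¹) * b⁻¹ = g * v * g⁻¹ := by
      calc b * (g * v * g⁻¹) * b⁻¹
          = (b * g * b⁻¹ * g⁻¹) * (g * (b * v * b⁻¹) * g⁻¹) * (b * g * b⁻¹ * g⁻¹)⁻¹ := by group
        _ = g * v * g⁻¹ := by rw [h2, h1]
    calc b * (g * v * g⁻¹) = (b * (g * v * g⁻¹) * b⁻¹) * b := by group
      _ = _ := by rw [h3]
  have htN : t ∈ normalizer (V₁ : Set G) :=
    hpres t htL (fun b hb => hcomm b (hB'B hb) t htB)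
  have hyN : y ∈ normalizer (V₁ : Set G) := hpres y hyL hyB'
  have hyNV : y ∈ normalizer (V : Set G) := hLN hyL
  have hym : ∀ w ∈ V, y ^ m * w * (y ^ m)⁻¹ = w := fun w hw => hact _ hymK w hw
  have htt : ∀ w ∈ V₁, t * (t * w * t⁻¹) * t⁻¹ = w := by
    intro w hw
    have := hact _ (hsq t htB) w (hV₁V hw)
    calc t * (t * w * t⁻¹) * t⁻¹ = (t * t) * w * (t * t)⁻¹ := by group
      _ = w := this
  have hcV : ∀ v ∈ V, y⁻¹ * v * y ∈ V := by
    intro v hv
    have := hVn y⁻¹ (inv_mem hyL) v hv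
    simpa using this
  have hty' : ∀ w ∈ V₁, t * (y * w * y⁻¹) * t⁻¹ = y⁻¹ * (t * w * t⁻¹) * y := by
    intro w hw
    have h1 := hact _ hty _ (hcV _ (hVn t htL w (hV₁V hw)))
    calc t * (y * w * y⁻¹) * t⁻¹
        = (t * y * t⁻¹ * y) * (y⁻¹ * (t * w * t⁻¹) * y) * (t * y * t⁻¹ * y)⁻¹ := by group
      _ = _ := h1
  have hfour : 4 ≤ (centralizer ({t} : Set G)).relIndex V₁ := by
    by_contra hlt
    push Not at hlt
    have hrk := rank_form hV₁el htN hlt
    have hfix := trans_core hP (hV₁V.trans hVL) hV₁el htL hyL htN hyN htt hty' hm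
      (fun w hw => hym w (hV₁V hw)) hrk
    have hex : ∃ v ∈ V, y * v * y⁻¹ ≠ v := by
      by_contra hcon
      push Not at hcon
      apply hyK
      rw [hK]
      refine ⟨hyL, mem_centralizer_iff.mpr fun v hv => ?_⟩
      have := hcon v hv
      calc v * y = (y * v * y⁻¹) * y := by rw [this]
        _ = y * v := by group
    obtain ⟨v, hv, hvy⟩ := hex
    have hPy : ∀ p ∈ B', ∀ w ∈ V, p * (y * w * y⁻¹) * p⁻¹ = y * (p * w * p⁻¹) * y⁻¹ := by
      intro p hp w hw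
      have h1 := hact _ (hyB' p hp) _ (hVn y hyL _ (hVn p (hB'L hp) w hw))
      calc p * (y * w * y⁻¹) * p⁻¹
          = (p * y * p⁻¹ * y⁻¹) * (y * (p * w * p⁻¹) * y⁻¹) * (p * y * p⁻¹ * y⁻¹)⁻¹ := by group
        _ = _ := h1
    obtain ⟨z, hzV, hzC, hzy⟩ := exists_fixed_of_two_group hV hVp (hBp.to_le hB'B)
      (hB'L.trans hLN) hyNV hm hym hPy hv hvy
    exact hzy (hfix z (hmemV₁ z |>.mpr ⟨fun b hb => mem_centralizer_iff.mp hzC b hb, hzV⟩))
  -- numbers
  have hB2 : B'.relIndex B = 2 := relIndex_two_of_hyperplane hB'B htB htB' hy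
  have hKB : K.relIndex B = K.relIndex B' * 2 := by
    rw [relIndex_hyperplane hKB' hB'B, hB2]
  have hCB : centralizer (B : Set G) = centralizer ({t} : Set G) ⊓ centralizer (B' : Set G) := by
    ext g
    simp only [mem_inf, mem_centralizer_iff, Set.mem_singleton_iff, forall_eq]
    constructor
    · intro h
      exact ⟨h t htB, fun b hb => h b (hB'B hb)⟩
    · rintro ⟨h1, h2⟩ b hb
      rcases hy b hb with h | h
      · exact h2 b h
      · have h3 := h2 _ h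
        have h4 : b * g * t = g * b * t := by
          calc b * g * t = b * (g * t) := by group
            _ = b * (t * g) := by rw [h1]
            _ = (b * t) * g := by group
            _ = g * (b * t) := h3
            _ = _ := by group
        exact mul_right_cancel h4
  rw [hCB, ← Subgroup.relIndex_inf_mul_relIndex, hKB]
  calc (K.relIndex B' * 2) ^ 2 = 4 * (K.relIndex B') ^ 2 := by ring
    _ ≤ (centralizer ({t} : Set G)).relIndex V₁ * (centralizer (B' : Set G)).relIndex V :=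
      Nat.mul_le_mul hfour hIH

end Cfsg.Agent.Lib.SFree
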