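import Mathlib
import Cfsg.Agent.Lib.SFree.Thin
import Cfsg.Agent.Lib.Coprime.Factor
import Cfsg.Agent.Lib.Coprime.Coset

/-!
# The normal closure of `Ω₁ Z(S)`
-/

namespace Cfsg.Agent.Lib.SFree

open Subgroup Cfsg.Agent.Lib.PGroup.ZJ
open Cfsg.Agent.Lib.Basic.PCore
open scoped commutatorElement

variable {G : Type*} [Group G]

/-- `O₂(L)` in the ambient group. -/
def Q2 (L : Subgroup G) : Subgroup G := (Cfsg.pCore 2 L).map L.subtype

theorem Q2_le (L : Subgroup G) : Q2 L ≤ L := by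
  rintro _ ⟨q, _, rfl⟩; exact q.2

/-- Characteristic 2 in the ambient group. -/
def Char2 (L : Subgroup G) : Prop := ∀ g ∈ L, (∀ q ∈ Q2 L, g * q = q * g) → g ∈ Q2 L

theorem Q2_conj (L : Subgroup G) {g q : G} (hg : g ∈ L) (hq : q ∈ Q2 L) : g * q * g⁻¹ ∈ Q2 L := by
  obtain ⟨q', hq', rfl⟩ := hq
  exact ⟨⟨g, hg⟩ * q' * ⟨g, hg⟩⁻¹, (pCore_normal 2 L).conj_mem q' hq' ⟨g, hg⟩, rfl⟩

theorem Q2_normalizer (L : Subgroup G) : L ≤ normalizer (Q2 L : Set G) := by
  intro g hg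
  rw [mem_normalizer_iff]
  intro q
  constructor
  · exact fun h => Q2_conj L hg h
  · intro h
    have := Q2_conj L (inv_mem hg) h
    simpa [mul_assoc] using this

/-- `Ω₁ Z(S)`. -/
def Zo (S : Subgroup G) : Subgroup G where
  carrier := {z | z ∈ S ∧ z ∈ centralizer (S : Set G) ∧ z * z = 1}
  mul_mem' := by
    rintro a b ⟨h1, h2, h3⟩ ⟨h4, h5, h6⟩
    refine ⟨mul_mem h1 h4, mul_mem h2 h5, ?_⟩
    have hc : b * a = a * b := (mem_centralizer_iff.mp h5 a h1).symm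
    rw [show a * b * (a * b) = a * (b * a) * b by group, hc,
      show a * (a * b) * b = (a * a) * (b * b) by group, h3, h6, one_mul]
  one_mem' := ⟨one_mem _, one_mem _, one_mul 1⟩
  inv_mem' := by
    rintro a ⟨h1, h2, h3⟩
    refine ⟨inv_mem h1, inv_mem h2, ?_⟩
    rw [← mul_inv_rev, h3, inv_one]

theorem mem_Zo {S : Subgroup G} {z : G} :
    z ∈ Zo S ↔ z ∈ S ∧ z ∈ centralizer (S : Set G) ∧ z * z = 1 := Iff.rfl

theorem Zo_le (S : Subgroup G) : Zo S ≤ S := fun _ h => h.1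

theorem PP_Zo (S : Subgroup G) : PP 2 (Zo S) := by
  constructor
  · rintro a ⟨h1, _, _⟩ b ⟨_, h5, _⟩
    exact (mem_centralizer_iff.mp h5 a h1)
  · rintro a ⟨_, _, h3⟩
    rw [pow_two]; exact h3

/-- The normal closure in `L`. -/
def nc (L Z : Subgroup G) : Subgroup G := closure {x | ∃ g ∈ L, ∃ z ∈ Z, x = g * z * g⁻¹}

theorem le_nc (L Z : Subgroup G) : Z ≤ nc L Z := by
  intro z hz
  exact subset_closure ⟨1, one_mem _, z, hz, by group⟩

theorem nc_conj {L Z : Subgroup G} {g x : G} (hg : g ∈ L) (hx : x ∈ nc L Z) : g * x * g⁻¹ ∈ nc L Z := by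
  induction hx using closure_induction with
  | mem x hx =>
    obtain ⟨h, hh, z, hz, rfl⟩ := hx
    exact subset_closure ⟨g * h, mul_mem hg hh, z, hz, by group⟩
  | one => simp
  | mul a b _ _ ha hb =>
    have : g * (a * b) * g⁻¹ = (g * a * g⁻¹) * (g * b * g⁻¹) := by group
    rw [this]; exact mul_mem ha hb
  | inv a _ ha =>
    have : g * a⁻¹ * g⁻¹ = (g * a * g⁻¹)⁻¹ := by group
    rw [this]; exact inv_mem ha

theorem nc_normalizer (L Z : Subgroup G) : L ≤ normalizer (nc L Z : Set G) := by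
  intro g hg
  rw [mem_normalizer_iff]
  intro q
  constructor
  · exact fun h => nc_conj hg h
  · intro h
    have := nc_conj (inv_mem hg) h
    simpa [mul_assoc] using this

/-- `B` acts as an elementary abelian group on `V`. -/
def ElemOn (B V : Subgroup G) : Prop :=
  (∀ a ∈ B, ∀ b ∈ B, a * b * a⁻¹ * b⁻¹ ∈ centralizer (V : Set G)) ∧
    ∀ a ∈ B, a * a ∈ centralizer (V : Set G)

/-- `A` is thin with respect to subgroups of `S`. -/
def ThinOn (S A : Subgroup G) : Prop :=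
  ∀ B : Subgroup G, B ≤ S → ElemOn B A →
    ((centralizer (A : Set G)).relIndex B) ^ 2 ≤ (centralizer (B : Set G)).relIndex A

section
variable [Finite G]

theorem PP_sup {k : ℕ} {A B : Subgroup G} (hA : PP k A) (hB : PP k B)
    (hc : ∀ a ∈ A, ∀ b ∈ B, a * b = b * a) : PP k (A ⊔ B) := by
  have hN : B ≤ normalizer (A : Set G) := by
    intro b hb
    apply Cfsg.Agent.Lib.Coprime.Three.mem_normalizer_of_conj_mem
    intro a ha
    rw [← hc a ha b hb]
    simpa using ha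
  constructor
  · intro x hx y hy
    obtain ⟨a₁, ha₁, b₁, hb₁, rfl⟩ := (Cfsg.Agent.Lib.Coprime.Coset.mem_sup_iff_of_le_normalizer hN x).mp hx
    obtain ⟨a₂, ha₂, b₂, hb₂, rfl⟩ := (Cfsg.Agent.Lib.Coprime.Coset.mem_sup_iff_of_le_normalizer hN y).mp hy
    calc a₁ * b₁ * (a₂ * b₂) = a₁ * (b₁ * a₂) * b₂ := by group
      _ = a₁ * (a₂ * b₁) * b₂ := by rw [hc a₂ ha₂ b₁ hb₁]
      _ = (a₁ * a₂) * (b₁ * b₂) := by group
      _ = (a₂ * a₁) * (b₂ * b₁) := by rw [hA.1 a₁ ha₁ a₂ ha₂, hB.1 b₁ hb₁ b₂ hb₂]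
      _ = a₂ * (a₁ * b₂) * b₁ := by group
      _ = a₂ * (b₂ * a₁) * b₁ := by rw [hc a₁ ha₁ b₂ hb₂]
      _ = _ := by group
  · intro x hx
    obtain ⟨a₁, ha₁, b₁, hb₁, rfl⟩ := (Cfsg.Agent.Lib.Coprime.Coset.mem_sup_iff_of_le_normalizer hN x).mp hx
    have hcm : Commute a₁ b₁ := hc a₁ ha₁ b₁ hb₁
    rw [hcm.mul_pow, hA.2 a₁ ha₁, hB.2 b₁ hb₁, one_mul]

/-- **Offender inequality**. -/
theorem offender {T E U : Subgroup G} (hE : E ∈ AA 2 T) (hUT : U ≤ T) (hU : PP 2 U) :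
    E.relIndex U ≤ (centralizer (U : Set G)).relIndex E := by
  set D := E ⊓ centralizer (U : Set G) with hD
  have hDE : D ≤ E := inf_le_left
  have hDel : PP 2 D := ⟨fun a ha b hb => hE.2.1.1 a (hDE ha) b (hDE hb), fun a ha => hE.2.1.2 a (hDE ha)⟩
  have hDU : ∀ a ∈ D, ∀ b ∈ U, a * b = b * a := fun a ha b hb =>
    (mem_centralizer_iff.mp ha.2 b hb).symm
  have hF := PP_sup hDel hU hDU
  have hFT : D ⊔ U ≤ T := sup_le (hDE.trans hE.1) hUT
  have hcard := hE.2.2 _ hFT hF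
  have hUN : U ≤ normalizer (D : Set G) := by
    intro b hb
    apply Cfsg.Agent.Lib.Coprime.Three.mem_normalizer_of_conj_mem
    intro a ha
    rw [← hDU a ha b hb]
    simpa using ha
  have hrel : D.relIndex U = D.relIndex (D ⊔ U) := by
    apply Cfsg.Agent.Lib.Coprime.Factor.relIndex_eq_of_forall_exists le_sup_right
    intro k hk
    obtain ⟨d, hd, u, hu, rfl⟩ := (Cfsg.Agent.Lib.Coprime.Coset.mem_sup_iff_of_le_normalizer hUN k).mp hk
    refine ⟨u, hu, ?_⟩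
    rw [hDU d hd u hu]
    simpa using hd
  have h1 : D.relIndex (D ⊔ U) * Nat.card D = Nat.card ↥(D ⊔ U) := by
    have := Subgroup.index_mul_card (D.subgroupOf (D ⊔ U))
    rw [Nat.card_congr (Subgroup.subgroupOfEquivOfLe (le_sup_left : D ≤ D ⊔ U)).toEquiv] at this
    exact this
  have h2 : D.relIndex E * Nat.card D = Nat.card E := by
    have := Subgroup.index_mul_card (D.subgroupOf E)
    rw [Nat.card_congr (Subgroup.subgroupOfEquivOfLe hDE).toEquiv] at this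
    exact this
  have hDpos : 0 < Nat.card D := Nat.card_pos
  have h3 : D.relIndex U ≤ D.relIndex E := by
    rw [hrel]
    apply Nat.le_of_mul_le_mul_right _ hDpos
    rw [h1, h2]; exact hcard
  have h4 : D.relIndex E = (centralizer (U : Set G)).relIndex E := by
    rw [hD, inf_comm]; exact Subgroup.inf_relIndex_right _ _
  rw [← h4]
  refine le_trans ?_ h3
  exact Nat.le_of_dvd (Nat.pos_of_ne_zero Subgroup.index_ne_zero_of_finite)
    (Subgroup.relIndex_dvd_of_le_left U hDE)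

theorem Q2_isPGroup (L : Subgroup G) : IsPGroup 2 (Q2 L) := by
  haveI : Fact (Nat.Prime 2) := ⟨Nat.prime_two⟩
  exact (pCore_isPGroup 2).map L.subtype

theorem Q2_le_of_sylow {L T : Subgroup G} (Sy : Sylow 2 L) (hSy : (Sy : Subgroup L) = T.subgroupOf L) :
    Q2 L ≤ T := by
  haveI : Fact (Nat.Prime 2) := ⟨Nat.prime_two⟩
  rintro _ ⟨q, hq, rfl⟩
  have := pCore_le_sylow Sy hq
  rw [hSy] at this
  exact this

theorem Q2_le_sylow (S : Sylow 2 G) {L : Subgroup G} (h : (S : Subgroup G) ≤ L) : Q2 L ≤ S :=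
  Q2_le_of_sylow (S.subtype h) (Sylow.coe_subtype S h)

theorem char2_of {L : Subgroup G} (h : Cfsg.IsOfCharacteristicTwo L) : Char2 L := by
  intro g hg hq
  refine ⟨⟨g, hg⟩, h ?_, rfl⟩
  rw [mem_centralizer_iff]
  intro q hq'
  apply Subtype.ext
  exact (hq q ⟨q, hq', rfl⟩).symm

/-- Basic properties of the normal closure of `Ω₁ Z(S)`. -/
theorem nc_le_Zo {S L : Subgroup G} (hSL : S ≤ L) (hQS : Q2 L ≤ S) (hc : Char2 L) :
    nc L (Zo S) ≤ Zo (Q2 L) := by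
  rw [nc, closure_le]
  rintro _ ⟨g, hg, z, hz, rfl⟩
  have hzQc : ∀ q ∈ Q2 L, z * q = q * z := by
    intro q hq
    exact (mem_centralizer_iff.mp hz.2.1 q (hQS hq)).symm
  have hzQ : z ∈ Q2 L := hc z (hSL hz.1) hzQc
  refine ⟨Q2_conj L hg hzQ, ?_, ?_⟩
  · refine mem_centralizer_iff.mpr ?_
    intro q hq
    have h1 : g⁻¹ * q * g ∈ Q2 L := by
      have := Q2_conj L (inv_mem hg) hq
      simpa using this
    have h2 := hzQc _ h1
    calc q * (g * z * g⁻¹) = g * ((g⁻¹ * q * g) * z) * g⁻¹ := by group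
      _ = g * (z * (g⁻¹ * q * g)) * g⁻¹ := by rw [h2]
      _ = _ := by group
  · have := hz.2.2
    calc g * z * g⁻¹ * (g * z * g⁻¹) = g * (z * z) * g⁻¹ := by group
      _ = 1 := by rw [this]; group

/-- `O₂(L / C_L(A)) = 1`. -/
theorem v0_core {S L K : Subgroup G} (Sy : Sylow 2 L) (hSy : (Sy : Subgroup L) = S.subgroupOf L)
    (hK : K = L ⊓ centralizer (nc L (Zo S) : Set G)) [(K.subgroupOf L).Normal] :
    Cfsg.pCore 2 (↥L ⧸ K.subgroupOf L) = ⊥ := by
  haveI : Fact (Nat.Prime 2) := ⟨Nat.prime_two⟩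
  set π := QuotientGroup.mk' (K.subgroupOf L) with hπ
  have hπs : Function.Surjective π := QuotientGroup.mk'_surjective _
  have hker : ∀ g : L, π g = 1 ↔ (g : G) ∈ K := by
    intro g
    rw [hπ, QuotientGroup.mk'_apply, QuotientGroup.eq_one_iff]
    rfl
  set Sb : Sylow 2 (↥L ⧸ K.subgroupOf L) := Sy.mapSurjective hπs with hSb
  rw [eq_bot_iff]
  intro x hx
  rw [mem_bot]
  obtain ⟨g, rfl⟩ := hπs x
  rw [hker, hK]
  refine ⟨g.2, ?_⟩
  have hgen : ∀ h : L, ∀ z ∈ Zo (S : Subgroup G), ((h : G) * z * (h : G)⁻¹) * g = g * ((h : G) * z * (h : G)⁻¹) := by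
    intro h z hz
    have h1 : π (h⁻¹ * g * h) ∈ Cfsg.pCore 2 (↥L ⧸ K.subgroupOf L) := by
      have := (pCore_normal 2 (↥L ⧸ K.subgroupOf L)).conj_mem _ hx (π h⁻¹)
      simpa using this
    have h2 := pCore_le_sylow Sb h1
    rw [hSb, Sylow.coe_mapSurjective, hSy] at h2
    obtain ⟨s, hs, hsπ⟩ := h2
    have h3 : π (s⁻¹ * (h⁻¹ * g * h)) = 1 := by
      rw [map_mul, map_inv, ← hsπ]; group
    have h4 := (hker _).mp h3
    have h5 : (z : G) ∈ nc L (Zo (S : Subgroup G)) := le_nc _ _ hz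
    rw [hK] at h4
    have h6 : z * ((s : G)⁻¹ * ((h : G)⁻¹ * g * h)) = ((s : G)⁻¹ * ((h : G)⁻¹ * g * h)) * z := by
      have := mem_centralizer_iff.mp h4.2 z h5
      simpa using this
    have h7 : (s : G) * z = z * s := (mem_centralizer_iff.mp hz.2.1 s hs)
    have h8 : z * ((h : G)⁻¹ * g * h) = ((h : G)⁻¹ * g * h) * z := by
      have e : (h : G)⁻¹ * g * h = s * ((s : G)⁻¹ * ((h : G)⁻¹ * g * h)) := by group
      rw [e]
      calc z * ((s : G) * ((s : G)⁻¹ * ((h : G)⁻¹ * g * h))) = (z * s) * ((s : G)⁻¹ * ((h : G)⁻¹ * g * h)) := by group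
        _ = (s * z) * ((s : G)⁻¹ * ((h : G)⁻¹ * g * h)) := by rw [h7]
        _ = s * (z * ((s : G)⁻¹ * ((h : G)⁻¹ * g * h))) := by group
        _ = s * (((s : G)⁻¹ * ((h : G)⁻¹ * g * h)) * z) := by rw [h6]
        _ = _ := by group
    calc ((h : G) * z * (h : G)⁻¹) * g = h * (z * ((h : G)⁻¹ * g * h)) * (h : G)⁻¹ := by group
      _ = h * (((h : G)⁻¹ * g * h) * z) * (h : G)⁻¹ := by rw [h8]
      _ = _ := by group
  -- extend to the closure
  have hcl : nc L (Zo (S : Subgroup G)) ≤ centralizer ({(g : G)} : Set G) := by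
    rw [nc, closure_le]
    rintro _ ⟨h, hh, z, hz, rfl⟩
    rw [SetLike.mem_coe, mem_centralizer_singleton_iff]
    exact hgen ⟨h, hh⟩ z hz
  refine mem_centralizer_iff.mpr ?_
  intro a ha
  exact ((mem_centralizer_singleton_iff).mp (hcl ha))

/-- **V0 thin**. -/
theorem v0_thin {S L : Subgroup G} (Sy : Sylow 2 L) (hSy : (Sy : Subgroup L) = S.subgroupOf L)
    (hSL : S ≤ L) (hSp : IsPGroup 2 S) (hc : Char2 L)
    (hP : NoPat L) (hsol : Group.IsSolvable L) : ThinOn S (nc L (Zo S)) := by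
  classical
  haveI : Fact (Nat.Prime 2) := ⟨Nat.prime_two⟩
  set A := nc L (Zo S) with hA
  have hAZ : A ≤ Zo (Q2 L) := nc_le_Zo hSL (Q2_le_of_sylow Sy hSy) hc
  have hAQ : A ≤ Q2 L := hAZ.trans (Zo_le _)
  have hAL : A ≤ L := hAQ.trans (Q2_le L)
  have hAel : PP 2 A := ⟨fun a ha b hb => (PP_Zo _).1 a (hAZ ha) b (hAZ hb), fun a ha => (PP_Zo _).2 a (hAZ ha)⟩
  have hAp : IsPGroup 2 A := (Q2_isPGroup L).to_le hAQ
  have hLN : L ≤ normalizer (A : Set G) := nc_normalizer L _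
  set K := L ⊓ centralizer (A : Set G) with hK
  haveI hKn : (K.subgroupOf L).Normal := by
    refine ⟨fun n hn g => ?_⟩
    rw [mem_subgroupOf] at hn ⊢
    refine ⟨(L.mul_mem (L.mul_mem g.2 n.2) (L.inv_mem g.2)), ?_⟩
    refine mem_centralizer_iff.mpr ?_
    intro a ha
    have h1 : (g : G)⁻¹ * a * g ∈ A := by
      have := (mem_normalizer_iff.mp (hLN (L.inv_mem g.2)) a).mp ha
      simpa using this
    have h2 := mem_centralizer_iff.mp hn.2 _ h1
    show a * ((g : G) * n * (g : G)⁻¹) = ((g : G) * n * (g : G)⁻¹) * a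
    calc a * ((g : G) * n * (g : G)⁻¹) = g * (((g : G)⁻¹ * a * g) * n) * (g : G)⁻¹ := by group
      _ = g * (n * ((g : G)⁻¹ * a * g)) * (g : G)⁻¹ := by rw [h2]
      _ = _ := by group
  have hsolq : Cfsg.IsPSolvable 2 (↥L ⧸ K.subgroupOf L) :=
    Cfsg.Agent.Lib.Coprime.PSolvable.isPSolvable_quotient Nat.prime_two _
      (Cfsg.Agent.Lib.Coprime.PSolvable.isPSolvable_of_isSolvable Nat.prime_two hsol)
  have h0 := v0_core Sy hSy hK
  have hth := thin_core hP hAL hAel hAp hLN hK hsolq h0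
  intro B hBS hEl
  have hBL : B ≤ L := hBS.trans hSL
  have hrel : K.relIndex B = (centralizer (A : Set G)).relIndex B := by
    rw [← Subgroup.inf_relIndex_right K B, ← Subgroup.inf_relIndex_right (centralizer (A : Set G)) B]
    congr 1
    ext x
    simp only [hK, mem_inf]
    constructor
    · rintro ⟨⟨_, a⟩, c⟩; exact ⟨a, c⟩
    · rintro ⟨a, c⟩; exact ⟨⟨hBL c, a⟩, c⟩
  rw [← hrel]
  refine hth B hBL (hSp.to_le hBS) ?_ ?_
  · intro a ha b hb
    exact mem_inf.mpr ⟨L.mul_mem (L.mul_mem (L.mul_mem (hBL ha) (hBL hb)) (L.inv_mem (hBL ha))) (L.inv_mem (hBL hb)), hEl.1 a ha b hb⟩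
  · intro a ha
    exact mem_inf.mpr ⟨L.mul_mem (hBL ha) (hBL ha), hEl.2 a ha⟩

end

end Cfsg.Agent.Lib.SFree
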