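import Mathlib
import Cfsg.Agent.Lib.SFree.V0

/-!
# Thin subgroups relative to a fixed subgroup
-/

namespace Cfsg.Agent.Lib.SFree

open Subgroup Cfsg.Agent.Lib.PGroup.ZJ
open Cfsg.Agent.Lib.Basic.PCore
open scoped commutatorElement

variable {G : Type*} [Group G]

/-- Conjugate subgroup. -/
def cj (g : G) (H : Subgroup G) : Subgroup G := H.map (MulAut.conj g).toMonoidHom

theorem mem_cj {g x : G} {H : Subgroup G} : x ∈ cj g H ↔ g⁻¹ * x * g ∈ H := by
  constructor
  · rintro ⟨h, hh, rfl⟩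
    have : g⁻¹ * ((MulAut.conj g).toMonoidHom h) * g = h := by
      simp [MulAut.conj_apply]; group
    rw [this]; exact hh
  · intro h
    refine ⟨_, h, ?_⟩
    simp [MulAut.conj_apply]; group

theorem conj_mem_cj {g x : G} {H : Subgroup G} (h : x ∈ H) : g * x * g⁻¹ ∈ cj g H := by
  rw [mem_cj]
  have : g⁻¹ * (g * x * g⁻¹) * g = x := by group
  rw [this]; exact h

theorem cj_relIndex (g : G) (H K : Subgroup G) : (cj g H).relIndex (cj g K) = H.relIndex K :=
  Subgroup.relIndex_map_map_of_injective H K (MulAut.conj g).injective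

theorem cj_centralizer (g : G) (U : Subgroup G) :
    centralizer (cj g U : Set G) = cj g (centralizer (U : Set G)) := by
  ext x
  rw [mem_cj, mem_centralizer_iff, mem_centralizer_iff]
  constructor
  · intro h u hu
    have h1 := h (g * u * g⁻¹) (conj_mem_cj hu)
    have hx : g * u * g⁻¹ * x = x * (g * u * g⁻¹) := h1
    calc u * (g⁻¹ * x * g) = g⁻¹ * (g * u * g⁻¹ * x) * g := by group
      _ = g⁻¹ * (x * (g * u * g⁻¹)) * g := by rw [hx]
      _ = _ := by group
  · intro h u hu
    have h1 := h _ (mem_cj.mp hu)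
    have hx : g⁻¹ * u * g * (g⁻¹ * x * g) = g⁻¹ * x * g * (g⁻¹ * u * g) := h1
    calc u * x = g * (g⁻¹ * u * g * (g⁻¹ * x * g)) * g⁻¹ := by group
      _ = g * (g⁻¹ * x * g * (g⁻¹ * u * g)) * g⁻¹ := by rw [hx]
      _ = _ := by group

theorem cj_cj (g h : G) (H : Subgroup G) : cj g (cj h H) = cj (g * h) H := by
  ext x
  simp only [mem_cj]
  have : h⁻¹ * (g⁻¹ * x * g) * h = (g * h)⁻¹ * x * (g * h) := by group
  rw [this]

theorem cj_inv_cj (g : G) (H : Subgroup G) : cj g⁻¹ (cj g H) = H := by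
  ext x
  simp only [mem_cj]
  have : g⁻¹ * (g⁻¹⁻¹ * x * g⁻¹) * g = x := by group
  rw [this]

theorem cj_cj_inv (g : G) (H : Subgroup G) : cj g (cj g⁻¹ H) = H := by
  have := cj_inv_cj g⁻¹ H
  rwa [inv_inv] at this

theorem PP_cj {k : ℕ} {U : Subgroup G} (hU : PP k U) (g : G) : PP k (cj g U) := by
  constructor
  · intro a ha b hb
    have h1 := hU.1 _ (mem_cj.mp ha) _ (mem_cj.mp hb)
    have hx : g⁻¹ * a * g * (g⁻¹ * b * g) = g⁻¹ * b * g * (g⁻¹ * a * g) := h1
    calc a * b = g * (g⁻¹ * a * g * (g⁻¹ * b * g)) * g⁻¹ := by group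
      _ = g * (g⁻¹ * b * g * (g⁻¹ * a * g)) * g⁻¹ := by rw [hx]
      _ = _ := by group
  · intro a ha
    have h1 := hU.2 _ (mem_cj.mp ha)
    have e : (g⁻¹ * a * g) ^ k = g⁻¹ * a ^ k * g := by
      have := conj_pow (a := g⁻¹) (b := a) (i := k)
      simpa using this
    have : g⁻¹ * a ^ k * g = 1 := by rw [← e]; exact h1
    calc a ^ k = g * (g⁻¹ * a ^ k * g) * g⁻¹ := by group
      _ = 1 := by rw [this]; group

/-- Thinness for subgroups of `R`. -/
def TH (R U : Subgroup G) : Prop :=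
  ∀ B : Subgroup G, B ≤ R → ElemOn B U →
    ((centralizer (U : Set G)).relIndex B) ^ 2 ≤ (centralizer (B : Set G)).relIndex U

theorem ThinOn.th {S A R : Subgroup G} (h : ThinOn S A) (hR : R ≤ S) : TH R A :=
  fun B hB => h B (hB.trans hR)

theorem TH.mono {R R' U : Subgroup G} (h : TH R U) (hR : R' ≤ R) : TH R' U :=
  fun B hB => h B (hB.trans hR)

theorem elemOn_of_PP {B U : Subgroup G} (hB : PP 2 B) : ElemOn B U := by
  constructor
  · intro a ha b hb
    rw [hB.1 a ha b hb]
    have : b * a * a⁻¹ * b⁻¹ = 1 := by group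
    rw [this]; exact one_mem _
  · intro a ha
    rw [PP.sq hB ha]; exact one_mem _

theorem elemOn_cj {B U : Subgroup G} (h : ElemOn B U) (g : G) : ElemOn (cj g B) (cj g U) := by
  constructor
  · intro a ha b hb
    have h1 := h.1 _ (mem_cj.mp ha) _ (mem_cj.mp hb)
    rw [cj_centralizer, mem_cj]
    have : g⁻¹ * (a * b * a⁻¹ * b⁻¹) * g
        = (g⁻¹ * a * g) * (g⁻¹ * b * g) * (g⁻¹ * a * g)⁻¹ * (g⁻¹ * b * g)⁻¹ := by group
    rw [this]; exact h1
  · intro a ha
    have h1 := h.2 _ (mem_cj.mp ha)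
    rw [cj_centralizer, mem_cj]
    have : g⁻¹ * (a * a) * g = (g⁻¹ * a * g) * (g⁻¹ * a * g) := by group
    rw [this]; exact h1

/-- Conjugation by an element normalizing `R`. -/
theorem TH.conj {R U : Subgroup G} (h : TH R U) {g : G} (hg : g ∈ normalizer (R : Set G)) :
    TH R (cj g U) := by
  intro B hB hEl
  have hB0 : cj g⁻¹ B ≤ R := by
    intro x hx
    rw [mem_cj, inv_inv] at hx
    exact (mem_normalizer_iff.mp hg x).mpr (hB hx)
  have hEl0 : ElemOn (cj g⁻¹ B) U := by
    have := elemOn_cj hEl g⁻¹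
    rwa [cj_inv_cj] at this
  have h1 := h _ hB0 hEl0
  have h2 := cj_relIndex g (centralizer (U : Set G)) (cj g⁻¹ B)
  rw [cj_cj_inv, ← cj_centralizer] at h2
  have h3 := cj_relIndex g (centralizer (cj g⁻¹ B : Set G)) U
  rw [← cj_centralizer, cj_cj_inv] at h3
  rw [h2, h3]
  exact h1

/-- The class of thin `R`-invariant elementary abelian subgroups of `R`. -/
structure TT (R U : Subgroup G) : Prop where
  le : U ≤ R
  el : PP 2 U
  nm : R ≤ normalizer (U : Set G)
  th : TH R U

theorem TT_bot (R : Subgroup G) : TT R ⊥ := by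
  refine ⟨bot_le, PP_bot, ?_, ?_⟩
  · intro g _
    rw [mem_normalizer_iff]
    intro h
    rw [mem_bot, mem_bot]
    constructor
    · rintro rfl; group
    · intro h1
      have : h = g⁻¹ * (g * h * g⁻¹) * g := by group
      rw [this, h1]; group
  · intro B _ _
    have h1 : (centralizer ((⊥ : Subgroup G) : Set G)).relIndex B = 1 := by
      apply Subgroup.relIndex_eq_one.mpr
      intro x _
      rw [mem_centralizer_iff]
      intro h hh
      have : h = 1 := by simpa using hh
      rw [this]; group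
    rw [h1]
    have h2 : (centralizer (B : Set G)).relIndex (⊥ : Subgroup G) = 1 := by
      apply Subgroup.relIndex_eq_one.mpr
      exact bot_le
    rw [h2]; norm_num

section
variable [Finite G]

theorem TT.comm {R U₁ U₂ : Subgroup G} (h₁ : TT R U₁) (h₂ : TT R U₂) :
    ∀ a ∈ U₁, ∀ b ∈ U₂, a * b = b * a := by
  have hx := h₂.th U₁ h₁.le (elemOn_of_PP h₁.el)
  have hy := h₁.th U₂ h₂.le (elemOn_of_PP h₂.el)
  have hx0 : (centralizer (U₂ : Set G)).relIndex U₁ ≠ 0 := Subgroup.index_ne_zero_of_finite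
  have hy0 : (centralizer (U₁ : Set G)).relIndex U₂ ≠ 0 := Subgroup.index_ne_zero_of_finite
  set x := (centralizer (U₂ : Set G)).relIndex U₁ with hxd
  set y := (centralizer (U₁ : Set G)).relIndex U₂ with hyd
  have hx1 : x = 1 := by
    have h3 : x ≤ x ^ 2 := Nat.le_self_pow (by norm_num) x
    have h4 : y ≤ y ^ 2 := Nat.le_self_pow (by norm_num) y
    have h5 : x ^ 2 ≤ x := by linarith
    nlinarith [Nat.pos_of_ne_zero hx0]
  have hle : U₁ ≤ centralizer (U₂ : Set G) := Subgroup.relIndex_eq_one.mp hx1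
  intro a ha b hb
  exact (mem_centralizer_iff.mp (hle ha) b hb).symm

theorem TT.sup {R U₁ U₂ : Subgroup G} (h₁ : TT R U₁) (h₂ : TT R U₂) : TT R (U₁ ⊔ U₂) := by
  refine ⟨sup_le h₁.le h₂.le, PP_sup h₁.el h₂.el (h₁.comm h₂), ?_, ?_⟩
  · intro g hg
    apply Cfsg.Agent.Lib.Coprime.Three.mem_normalizer_of_conj_mem
    intro x hx
    have hmap : (U₁ ⊔ U₂).map (MulAut.conj g).toMonoidHom ≤ U₁ ⊔ U₂ := by
      rw [Subgroup.map_sup, sup_le_iff]
      constructor
      · rintro _ ⟨a, ha, rfl⟩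
        exact le_sup_left (a := U₁) (b := U₂) ((mem_normalizer_iff.mp (h₁.nm hg) a).mp ha)
      · rintro _ ⟨a, ha, rfl⟩
        exact le_sup_right (a := U₁) (b := U₂) ((mem_normalizer_iff.mp (h₂.nm hg) a).mp ha)
    exact hmap ⟨x, hx, rfl⟩
  · intro B hB hEl
    have hCU : centralizer ((U₁ ⊔ U₂ : Subgroup G) : Set G)
        = centralizer (U₂ : Set G) ⊓ centralizer (U₁ : Set G) := by
      ext g
      simp only [mem_inf, mem_centralizer_iff]
      constructor
      · intro h
        exact ⟨fun a ha => h a (le_sup_right (a := U₁) (b := U₂) ha),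
          fun a ha => h a (le_sup_left (a := U₁) (b := U₂) ha)⟩
      · rintro ⟨h1, h2⟩
        have hle : U₁ ⊔ U₂ ≤ centralizer ({g} : Set G) := by
          rw [sup_le_iff]
          constructor
          · intro a ha; rw [mem_centralizer_singleton_iff]; exact (h2 a ha)
          · intro a ha; rw [mem_centralizer_singleton_iff]; exact (h1 a ha)
        intro a ha
        exact (mem_centralizer_singleton_iff.mp (hle ha))
    have hel1 : ElemOn B U₁ := by
      refine ⟨fun a ha b hb => ?_, fun a ha => ?_⟩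
      · have := hEl.1 a ha b hb
        rw [hCU] at this; exact this.2
      · have := hEl.2 a ha
        rw [hCU] at this; exact this.2
    set B₁ := centralizer (U₁ : Set G) ⊓ B with hB₁
    have hB₁B : B₁ ≤ B := inf_le_right
    have hel2 : ElemOn B₁ U₂ := by
      refine ⟨fun a ha b hb => ?_, fun a ha => ?_⟩
      · have := hEl.1 a (hB₁B ha) b (hB₁B hb)
        rw [hCU] at this; exact this.1
      · have := hEl.2 a (hB₁B ha)
        rw [hCU] at this; exact this.1
    have t1 := h₁.th B hB hel1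
    have t2 := h₂.th B₁ (hB₁B.trans hB) hel2
    -- left side
    have hL : (centralizer ((U₁ ⊔ U₂ : Subgroup G) : Set G)).relIndex B
        = (centralizer (U₂ : Set G)).relIndex B₁ * (centralizer (U₁ : Set G)).relIndex B := by
      rw [hCU]; exact (Subgroup.relIndex_inf_mul_relIndex _ _ _).symm
    -- right side
    have hCB : centralizer (B : Set G) ≤ centralizer (B₁ : Set G) :=
      centralizer_le hB₁B
    have hU₁C : U₁ ≤ centralizer (B₁ : Set G) := by
      intro a ha
      rw [mem_centralizer_iff]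
      intro b hb
      exact (mem_centralizer_iff.mp hb.1 a ha).symm
    have hR : (centralizer (B : Set G)).relIndex (U₁ ⊔ U₂)
        = (centralizer (B : Set G)).relIndex (centralizer (B₁ : Set G) ⊓ (U₁ ⊔ U₂))
          * (centralizer (B₁ : Set G)).relIndex (U₁ ⊔ U₂) := by
      rw [Subgroup.relIndex_inf_mul_relIndex, inf_eq_left.mpr hCB]
    have hb1 : (centralizer (B : Set G)).relIndex U₁
        ≤ (centralizer (B : Set G)).relIndex (centralizer (B₁ : Set G) ⊓ (U₁ ⊔ U₂)) :=
      Cfsg.Agent.Lib.Coprime.Factor.relIndex_le_relIndex_of_le _ (le_inf hU₁C le_sup_left)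
    have hb2 : (centralizer (B₁ : Set G)).relIndex U₂ ≤ (centralizer (B₁ : Set G)).relIndex (U₁ ⊔ U₂) :=
      Cfsg.Agent.Lib.Coprime.Factor.relIndex_le_relIndex_of_le _ le_sup_right
    rw [hL, hR, mul_pow, mul_comm]
    exact Nat.mul_le_mul (t1.trans hb1) (t2.trans hb2)

theorem TT.conj {R U : Subgroup G} (h : TT R U) {g : G} (hg : g ∈ normalizer (R : Set G)) :
    TT R (cj g U) := by
  refine ⟨?_, PP_cj h.el g, ?_, h.th.conj hg⟩
  · intro x hx
    rw [mem_cj] at hx
    have h1 := h.le hx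
    have h2 := (mem_normalizer_iff.mp (inv_mem hg) _).mp h1
    have h3 : g⁻¹ * (g⁻¹ * x * g) * g⁻¹⁻¹ = g⁻¹ * (g⁻¹ * x * g) * g := by group
    have h4 : x = g * (g⁻¹ * x * g) * g⁻¹ := by group
    rw [h4]
    exact (mem_normalizer_iff.mp hg _).mp h1
  · intro r hr
    apply Cfsg.Agent.Lib.Coprime.Three.mem_normalizer_of_conj_mem
    intro x hx
    rw [mem_cj] at hx ⊢
    have hr' : g⁻¹ * r * g ∈ R := by
      have := (mem_normalizer_iff.mp (inv_mem hg) r).mp hr
      simpa using this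
    have h1 := (mem_normalizer_iff.mp (h.nm hr') _).mp hx
    have h2 : g⁻¹ * r * g * (g⁻¹ * x * g) * (g⁻¹ * r * g)⁻¹ = g⁻¹ * (r * x * r⁻¹) * g := by group
    rw [h2] at h1
    exact h1

/-- The largest member of the class. -/
theorem exists_largest (R : Subgroup G) : ∃ U, TT R U ∧ ∀ V, TT R V → V ≤ U := by
  obtain ⟨U, hU, hmax⟩ := Set.exists_max_image {U : Subgroup G | TT R U}
    (fun U => Nat.card U) (Set.toFinite _) ⟨⊥, TT_bot R⟩
  refine ⟨U, hU, fun V hV => ?_⟩
  have h1 := hmax _ (TT.sup hU hV)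
  have h2 : U = U ⊔ V := Subgroup.eq_of_le_of_card_ge le_sup_left h1
  rw [h2]; exact le_sup_right

theorem largest_normalizer {R U : Subgroup G} (hU : TT R U) (hmax : ∀ V, TT R V → V ≤ U) :
    normalizer (R : Set G) ≤ normalizer (U : Set G) := by
  intro g hg
  apply Cfsg.Agent.Lib.Coprime.Three.mem_normalizer_of_conj_mem
  intro x hx
  exact hmax _ (hU.conj hg) (conj_mem_cj hx)

end

end Cfsg.Agent.Lib.SFree
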