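import Mathlib
import Cfsg.Agent.Lib.SFree.Tcl

/-!
# Helpers for dihedral configurations
-/

namespace Cfsg.Agent.Lib.SFree

open Subgroup Cfsg.Agent.Lib.PGroup.ZJ
open scoped commutatorElement

variable {G : Type*} [Group G]

theorem mem_of_coprime_pows {H : Subgroup G} {y : G} {a b : ℕ} (h : a.Coprime b) (ha : y ^ a ∈ H)
    (hb : y ^ b ∈ H) : y ∈ H := by
  have h1 : (1 : ℤ) = (a : ℤ) * Nat.gcdA a b + (b : ℤ) * Nat.gcdB a b := by
    have := Nat.gcd_eq_gcd_ab a b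
    rw [h.gcd_eq_one] at this
    exact_mod_cast this
  have h2 : y = (y ^ a) ^ (Nat.gcdA a b) * (y ^ b) ^ (Nat.gcdB a b) := by
    rw [← zpow_natCast, ← zpow_natCast, ← zpow_mul, ← zpow_mul, ← zpow_add, ← h1, zpow_one]
  rw [h2]
  exact mul_mem (zpow_mem ha _) (zpow_mem hb _)

theorem pow_mul_mem {H : Subgroup G} {c y : G} (hy : y ∈ normalizer (H : Set G)) (h : c * y * y ∈ H) :
    ∀ n : ℕ, c ^ n * y ^ (2 * n) ∈ H := by
  intro n
  induction n with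
  | zero => simp
  | succ n ih =>
    have hinv : y⁻¹ * y⁻¹ ∈ normalizer (H : Set G) := mul_mem (inv_mem hy) (inv_mem hy)
    have h1 := (mem_normalizer_iff.mp hinv _).mp ih
    have h2 : c ^ (n + 1) * y ^ (2 * (n + 1))
        = (c * y * y) * ((y⁻¹ * y⁻¹) * (c ^ n * y ^ (2 * n)) * (y⁻¹ * y⁻¹)⁻¹) := by
      rw [pow_succ', show 2 * (n + 1) = 2 * n + 2 by ring, pow_add y (2 * n) 2]
      simp only [pow_two]
      group
    rw [h2]
    exact mul_mem h h1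

/-- Coset action: products. -/
theorem coset_mul {X Y : Subgroup G} {z₁ z₂ : G}
    (hz₁ : ∀ r ∈ X, r⁻¹ * (z₁ * r * z₁⁻¹) ∈ Y) (hz₂ : ∀ r ∈ X, r⁻¹ * (z₂ * r * z₂⁻¹) ∈ Y)
    (hN : ∀ y ∈ Y, z₁ * y * z₁⁻¹ ∈ Y) : ∀ r ∈ X, r⁻¹ * ((z₁ * z₂) * r * (z₁ * z₂)⁻¹) ∈ Y := by
  intro r hr
  have h1 := hz₁ r hr
  have h2 := hN _ (hz₂ r hr)
  have : r⁻¹ * ((z₁ * z₂) * r * (z₁ * z₂)⁻¹)
      = (r⁻¹ * (z₁ * r * z₁⁻¹)) * (z₁ * (r⁻¹ * (z₂ * r * z₂⁻¹)) * z₁⁻¹) := by group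
  rw [this]
  exact mul_mem h1 h2

/-- Coset action: powers. -/
theorem coset_pow {X Y : Subgroup G} {z : G} (hz : ∀ r ∈ X, r⁻¹ * (z * r * z⁻¹) ∈ Y)
    (hN : ∀ y ∈ Y, z * y * z⁻¹ ∈ Y) (n : ℕ) : ∀ r ∈ X, r⁻¹ * (z ^ n * r * (z ^ n)⁻¹) ∈ Y := by
  induction n with
  | zero => intro r _; simp [one_mem]
  | succ n ih =>
    intro r hr
    rw [pow_succ']
    exact coset_mul hz ih hN r hr

/-- Odd order element acting trivially on `Y` and on the cosets of `Y`. -/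
theorem central_of_odd [Finite G] {X Y : Subgroup G} {z : G} (hY : IsPGroup 2 Y)
    (hzY : ∀ y ∈ Y, z * y * z⁻¹ = y) (hz : ∀ r ∈ X, r⁻¹ * (z * r * z⁻¹) ∈ Y) {o : ℕ} (ho : Odd o)
    (hzo : z ^ o = 1) : ∀ r ∈ X, z * r * z⁻¹ = r := by
  intro r hr
  set x := r⁻¹ * (z * r * z⁻¹) with hx
  have hxY : x ∈ Y := hz r hr
  have hzr : z * r * z⁻¹ = r * x := by rw [hx]; group
  have hk : ∀ k : ℕ, z ^ k * r * (z ^ k)⁻¹ = r * x ^ k := by
    intro k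
    induction k with
    | zero => simp
    | succ k ih =>
      rw [pow_succ']
      calc z * z ^ k * r * (z * z ^ k)⁻¹ = z * (z ^ k * r * (z ^ k)⁻¹) * z⁻¹ := by group
        _ = z * (r * x ^ k) * z⁻¹ := by rw [ih]
        _ = (z * r * z⁻¹) * (z * x ^ k * z⁻¹) := by group
        _ = (r * x) * (z * x ^ k * z⁻¹) := by rw [hzr]
        _ = (r * x) * x ^ k := by rw [hzY _ (pow_mem hxY k)]
        _ = _ := by rw [pow_succ']; group
  have h1 := hk o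
  rw [hzo] at h1
  have h2 : x ^ o = 1 := by
    have : r * x ^ o = r := by rw [← h1]; group
    simpa using this
  obtain ⟨k, hk2⟩ := hY ⟨x, hxY⟩
  have h3 : x ^ (2 ^ k) = 1 := by
    have := congrArg Subtype.val hk2
    simpa using this
  have hcop : (2 ^ k).Coprime o := Nat.Coprime.pow_left k (Nat.coprime_two_left.mpr ho)
  have h4 : orderOf x ∣ 1 := by
    have := Nat.dvd_gcd (orderOf_dvd_of_pow_eq_one h3) (orderOf_dvd_of_pow_eq_one h2)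
    rwa [hcop.gcd_eq_one] at this
  have h5 : x = 1 := orderOf_eq_one_iff.mp (Nat.dvd_one.mp h4)
  rw [hzr, h5, mul_one]

/-- Dihedral triviality. -/
theorem dih_trivial [Finite G] {X Y : Subgroup G} {t b : G} {n o : ℕ} (hY : IsPGroup 2 Y)
    (htY : ∀ y ∈ Y, t * y * t⁻¹ ∈ Y) (hbY : ∀ y ∈ Y, b * y * b⁻¹ ∈ Y)
    (hzY : ∀ y ∈ Y, (t * b) ^ n * y * ((t * b) ^ n)⁻¹ = y)
    (htX : ∀ r ∈ X, r⁻¹ * (t * r * t⁻¹) ∈ Y) (hbX : ∀ r ∈ X, r⁻¹ * (b * r * b⁻¹) ∈ Y)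
    (ho : Odd o) (hzo : ((t * b) ^ n) ^ o = 1) : ∀ r ∈ X, (t * b) ^ n * r * ((t * b) ^ n)⁻¹ = r := by
  have hcN : ∀ y ∈ Y, (t * b) * y * (t * b)⁻¹ ∈ Y := by
    intro y hy
    have : (t * b) * y * (t * b)⁻¹ = t * (b * y * b⁻¹) * t⁻¹ := by group
    rw [this]; exact htY _ (hbY y hy)
  have hc := coset_mul htX hbX htY
  exact central_of_odd hY hzY (coset_pow hc hcN n) ho hzo

/-- Centralizing products. -/
theorem dih_cent {t b : G} {g : G} (ht : t * g * t⁻¹ = g) (hb : b * g * b⁻¹ = g) (n : ℕ) :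
    (t * b) ^ n * g * ((t * b) ^ n)⁻¹ = g := by
  induction n with
  | zero => simp
  | succ n ih =>
    rw [pow_succ']
    generalize (t * b) ^ n = z at ih ⊢
    calc (t * b) * z * g * ((t * b) * z)⁻¹
        = t * (b * (z * g * z⁻¹) * b⁻¹) * t⁻¹ := by group
      _ = g := by rw [ih, hb, ht]

/-- The inversion. -/
theorem dih_inv {t b : G} (ht : t * t = 1) (hb : b * b = 1) (n : ℕ) :
    t * (t * b) ^ n * t⁻¹ = ((t * b) ^ n)⁻¹ ∧ b * (t * b) ^ n * b⁻¹ = ((t * b) ^ n)⁻¹ := by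
  have ht1 : t⁻¹ = t := by rw [inv_eq_iff_mul_eq_one]; exact ht
  have hb1 : b⁻¹ = b := by rw [inv_eq_iff_mul_eq_one]; exact hb
  have h1 : t * (t * b) * t⁻¹ = (t * b)⁻¹ := by
    rw [mul_inv_rev, ht1, hb1, ← mul_assoc, ht, one_mul]
  have h2 : b * (t * b) * b⁻¹ = (t * b)⁻¹ := by
    rw [mul_inv_rev, ht1, hb1, mul_assoc, mul_assoc, hb, mul_one]
  constructor
  · rw [← conj_pow, h1, inv_pow]
  · rw [← conj_pow, h2, inv_pow]

theorem exists_odd_part [Finite G] (c : G) : ∃ a o : ℕ, Odd o ∧ (c ^ (2 ^ a)) ^ o = 1 := by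
  have h0 : orderOf c ≠ 0 := (orderOf_pos c).ne'
  obtain ⟨a, o, ho, h⟩ := Nat.exists_eq_two_pow_mul_odd h0
  refine ⟨a, o, ho, ?_⟩
  rw [← pow_mul, ← h, pow_orderOf_eq_one]

/-- Index arithmetic. -/
theorem relIndex_le_mul [Finite G] (H : Subgroup G) {W A : Subgroup G} (h : W ≤ A) :
    H.relIndex A ≤ H.relIndex W * W.relIndex A := by
  have h1 := Subgroup.relIndex_inf_mul_relIndex H W A
  rw [inf_eq_left.mpr h] at h1
  rw [h1]
  exact Nat.le_of_dvd (Nat.pos_of_ne_zero Subgroup.index_ne_zero_of_finite)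
    (Subgroup.relIndex_dvd_of_le_left A inf_le_left)

theorem relIndex_le_of_le [Finite G] {H K : Subgroup G} (h : H ≤ K) (W : Subgroup G) :
    K.relIndex W ≤ H.relIndex W :=
  Nat.le_of_dvd (Nat.pos_of_ne_zero Subgroup.index_ne_zero_of_finite)
    (Subgroup.relIndex_dvd_of_le_left W h)

/-- Equal indices with `H ≤ K`. -/
theorem inf_eq_of_relIndex_eq [Finite G] {H K W : Subgroup G} (h : H ≤ K)
    (heq : H.relIndex W = K.relIndex W) : H ⊓ W = K ⊓ W := by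
  have hle : H ⊓ W ≤ K ⊓ W := inf_le_inf_right _ h
  have h1 : (H ⊓ W).relIndex W * Nat.card ↥(H ⊓ W) = Nat.card W := by
    have := Subgroup.index_mul_card ((H ⊓ W).subgroupOf W)
    rw [Nat.card_congr (Subgroup.subgroupOfEquivOfLe (inf_le_right : H ⊓ W ≤ W)).toEquiv] at this
    exact this
  have h2 : (K ⊓ W).relIndex W * Nat.card ↥(K ⊓ W) = Nat.card W := by
    have := Subgroup.index_mul_card ((K ⊓ W).subgroupOf W)
    rw [Nat.card_congr (Subgroup.subgroupOfEquivOfLe (inf_le_right : K ⊓ W ≤ W)).toEquiv] at this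
    exact this
  rw [Subgroup.inf_relIndex_right] at h1 h2
  rw [heq] at h1
  have hpos : 0 < K.relIndex W := Nat.pos_of_ne_zero Subgroup.index_ne_zero_of_finite
  have h3 : Nat.card ↥(H ⊓ W) = Nat.card ↥(K ⊓ W) := Nat.eq_of_mul_eq_mul_left hpos (h1.trans h2.symm)
  exact Subgroup.eq_of_le_of_card_ge hle h3.ge

/-- The central-coset closure under products. -/
theorem comm_sup {U X Y : Subgroup G} {z : G} (hU : ∀ u ∈ U, ∀ g ∈ X ⊔ Y, u * g = g * u)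
    (hX : ∀ g ∈ X, g⁻¹ * (z * g * z⁻¹) ∈ U) (hY : ∀ g ∈ Y, g⁻¹ * (z * g * z⁻¹) ∈ U) :
    ∀ g ∈ X ⊔ Y, g⁻¹ * (z * g * z⁻¹) ∈ U := by
  let F : Subgroup G :=
    { carrier := {g | g ∈ X ⊔ Y ∧ g⁻¹ * (z * g * z⁻¹) ∈ U}
      mul_mem' := by
        rintro g₁ g₂ ⟨h1, h2⟩ ⟨h3, h4⟩
        refine ⟨mul_mem h1 h3, ?_⟩
        have h5 := hU _ h2 g₂ h3
        have h6 : (g₁ * g₂)⁻¹ * (z * (g₁ * g₂) * z⁻¹)
            = g₂⁻¹ * (g₁⁻¹ * (z * g₁ * z⁻¹) * g₂) * (g₂⁻¹ * (z * g₂ * z⁻¹)) := by group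
        rw [h6, h5]
        have h7 : g₂⁻¹ * (g₂ * (g₁⁻¹ * (z * g₁ * z⁻¹))) = g₁⁻¹ * (z * g₁ * z⁻¹) := by group
        rw [h7]
        exact mul_mem h2 h4
      one_mem' := ⟨one_mem _, by simp [one_mem]⟩
      inv_mem' := by
        rintro g ⟨h1, h2⟩
        refine ⟨inv_mem h1, ?_⟩
        have h5 := hU _ (inv_mem h2) g h1
        have h6 : g⁻¹⁻¹ * (z * g⁻¹ * z⁻¹) = (g * (g⁻¹ * (z * g * z⁻¹))⁻¹) * g⁻¹ := by group
        rw [h6, ← h5]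
        have h7 : (g⁻¹ * (z * g * z⁻¹))⁻¹ * g * g⁻¹ = (g⁻¹ * (z * g * z⁻¹))⁻¹ := by group
        rw [h7]
        exact inv_mem h2 }
  have hle : X ⊔ Y ≤ F := sup_le (fun g hg => ⟨le_sup_left (a := X) (b := Y) hg, hX g hg⟩)
    (fun g hg => ⟨le_sup_right (a := X) (b := Y) hg, hY g hg⟩)
  intro g hg
  exact (hle hg).2

end Cfsg.Agent.Lib.SFree
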