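import Mathlib
import Cfsg.Agent.Lib.SFree.Dih

/-!
# A thin normal-in-`S` elementary abelian subgroup lies in `O₂(L)`
-/

namespace Cfsg.Agent.Lib.SFree

open Subgroup Cfsg.Agent.Lib.PGroup.ZJ
open Cfsg.Agent.Lib.Basic.PCore
open scoped commutatorElement

variable {G : Type*} [Group G] [Finite G]

omit [Finite G] in
theorem Q2_subgroupOf (L : Subgroup G) : (Q2 L).subgroupOf L = Cfsg.pCore 2 L :=
  Subgroup.comap_map_eq_self_of_injective L.subtype_injective _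

omit [Finite G] in
instance Q2_normal (L : Subgroup G) : ((Q2 L).subgroupOf L).Normal := by
  rw [Q2_subgroupOf]; exact pCore_normal 2 L

theorem quot_core_bot_aux {H : Type*} [Group H] [Finite H] (K : Subgroup H) (hK : K = Cfsg.pCore 2 H)
    [K.Normal] : Cfsg.pCore 2 (H ⧸ K) = ⊥ := by
  haveI : Fact (Nat.Prime 2) := ⟨Nat.prime_two⟩
  subst hK
  exact pCore_quotient_eq_bot

theorem Q2_quot_core (L : Subgroup G) : Cfsg.pCore 2 (↥L ⧸ (Q2 L).subgroupOf L) = ⊥ :=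
  quot_core_bot_aux _ (Q2_subgroupOf L)

theorem comm_lemma {A W : Subgroup G} (hA : PP 2 A) (hW : PP 2 W) {t r : G} (ht : t ∈ A) (hr : r ∈ W)
    (hxA : r⁻¹ * (t * r * t⁻¹) ∈ A) (hq : (centralizer (A : Set G)).relIndex W ≤ 2) :
    ∀ r₀ ∈ W, (r⁻¹ * (t * r * t⁻¹)) * r₀ = r₀ * (r⁻¹ * (t * r * t⁻¹)) := by
  intro r₀ hr₀
  set x := r⁻¹ * (t * r * t⁻¹) with hx
  by_cases hrC : r ∈ centralizer (A : Set G)
  · have h1 : t * r = r * t := mem_centralizer_iff.mp hrC t ht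
    have h2 : x = 1 := by rw [hx, h1]; group
    rw [h2]; group
  by_cases hr0C : r₀ ∈ centralizer (A : Set G)
  · exact mem_centralizer_iff.mp hr0C x hxA
  have hB : (centralizer (A : Set G) ⊓ W).relIndex W ≤ 2 := by
    rwa [Subgroup.inf_relIndex_right]
  have hrB : r ∉ centralizer (A : Set G) ⊓ W := fun h => hrC h.1
  have hy := hyperplane_of_relIndex hB hr hrB r₀ hr₀
  have hr0r : r₀ * r ∈ centralizer (A : Set G) := by
    rcases hy with h | h
    · exact absurd h.1 hr0C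
    · exact h.1
  have hc1 : x * (r₀ * r) = (r₀ * r) * x := mem_centralizer_iff.mp hr0r x hxA
  have hr2 : r * r = 1 := PP.sq hW hr
  have hx2 : x * x = 1 := PP.sq hA hxA
  have hr1 : r⁻¹ = r := by rw [inv_eq_iff_mul_eq_one]; exact hr2
  have hrx : r * x = t * r * t⁻¹ := by rw [hx]; group
  have hinv : (r * x) * (r * x) = 1 := by
    rw [hrx]
    calc t * r * t⁻¹ * (t * r * t⁻¹) = t * (r * r) * t⁻¹ := by group
      _ = 1 := by rw [hr2]; group
  have hc2 : x * r = r * x := by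
    calc x * r = r * (r * x) * r := by rw [← mul_assoc, hr2, one_mul]
      _ = r * (r * x) * (r * 1) := by rw [mul_one]
      _ = r * (r * x) * (r * ((r * x) * (r * x))) := by rw [hinv]
      _ = (r * r) * (x * r) * (r * x) * (r * x) := by group
      _ = (x * r * r) * x * (r * x) := by rw [hr2]; group
      _ = x * x * (r * x) := by rw [mul_assoc x r r, hr2, mul_one]
      _ = r * x := by rw [hx2, one_mul]
  calc x * r₀ = x * (r₀ * r) * r⁻¹ := by group
    _ = (r₀ * r) * x * r⁻¹ := by rw [hc1]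
    _ = r₀ * (r * x) * r⁻¹ := by group
    _ = r₀ * (x * r) * r⁻¹ := by rw [hc2]
    _ = _ := by group

theorem num_lemma {p q s s' : ℕ} (hp0 : p ≠ 0) (hq0 : q ≠ 0) (hs0 : s ≠ 0) (hs'0 : s' ≠ 0)
    (h1 : q ^ 2 ≤ s * 2) (h2 : p ^ 2 ≤ s' * 2) (h5 : s ≤ p) (h6 : s' ≤ q) :
    p ≤ 2 ∧ q ≤ 2 ∧ s = p ∧ s' = q := by
  have hpq : p ^ 2 ≤ q * 2 := by nlinarith
  have hqp : q ^ 2 ≤ p * 2 := by nlinarith
  have hp2 : p ≤ 2 := by
    by_contra hc
    push Not at hc
    have h7 : 3 * p ≤ q * 2 := by nlinarith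
    have h8 : 3 ≤ q := by omega
    have h9 : 3 * q ≤ p * 2 := by nlinarith
    omega
  have hq2 : q ≤ 2 := by
    by_contra hc
    push Not at hc
    nlinarith
  have hpp : p = 1 ∨ p = 2 := by omega
  have hqq : q = 1 ∨ q = 2 := by omega
  rcases hpp with rfl | rfl <;> rcases hqq with rfl | rfl
  · refine ⟨by omega, by omega, by omega, by omega⟩
  · norm_num at h1; omega
  · norm_num at h2; omega
  · norm_num at h1 h2; refine ⟨by omega, by omega, by omega, by omega⟩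

theorem mem_centralizer_sup {X Y : Subgroup G} {a : G} (hX : a ∈ centralizer (X : Set G))
    (hY : a ∈ centralizer (Y : Set G)) : a ∈ centralizer ((X ⊔ Y : Subgroup G) : Set G) := by
  have hle : X ⊔ Y ≤ centralizer ({a} : Set G) := by
    rw [sup_le_iff]
    constructor
    · intro h hh; rw [mem_centralizer_singleton_iff]; exact mem_centralizer_iff.mp hX h hh
    · intro h hh; rw [mem_centralizer_singleton_iff]; exact mem_centralizer_iff.mp hY h hh
  refine mem_centralizer_iff.mpr fun h hh => ?_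
  exact mem_centralizer_singleton_iff.mp (hle hh)

/-- **Step 1**. -/
theorem step1 {L S A : Subgroup G} (hP : NoPat L) (hSL : S ≤ L) (hSp : IsPGroup 2 S) (hQS : Q2 L ≤ S)
    (hc : Char2 L) (hAS : A ≤ S) (hAel : PP 2 A) (hSA : S ≤ normalizer (A : Set G)) (hth : ThinOn S A)
    (hsol : Group.IsSolvable L) : A ≤ Q2 L := by
  classical
  haveI : Fact (Nat.Prime 2) := ⟨Nat.prime_two⟩
  by_contra hAQ
  set Q := Q2 L with hQ
  have hQL : Q ≤ L := Q2_le L
  have hLQ : L ≤ normalizer (Q : Set G) := Q2_normalizer L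
  have hsolq : Cfsg.IsPSolvable 2 (↥L ⧸ Q.subgroupOf L) :=
    Cfsg.Agent.Lib.Coprime.PSolvable.isPSolvable_quotient Nat.prime_two _
      (Cfsg.Agent.Lib.Coprime.PSolvable.isPSolvable_of_isSolvable Nat.prime_two hsol)
  have hAL : A ≤ L := hAS.trans hSL
  have hcomm : ∀ a ∈ A, ∀ b ∈ A, a * b * a⁻¹ * b⁻¹ ∈ Q := by
    intro a ha b hb
    rw [hAel.1 a ha b hb]
    have : b * a * a⁻¹ * b⁻¹ = 1 := by group
    rw [this]; exact one_mem _
  have hsq : ∀ a ∈ A, a * a ∈ Q := by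
    intro a ha
    rw [PP.sq hAel ha]; exact one_mem _
  obtain ⟨W₁, hW₁A, hQW₁, t, htA, htW₁, hy_, y, hyL, hyQ, ⟨m, hm, hymQ⟩, hyW, hty⟩ :=
    phyp hQL hsolq (Q2_quot_core L) hAL hcomm hsq hAQ
  have ht2 : t * t = 1 := PP.sq hAel htA
  have ht1 : t⁻¹ = t := by rw [inv_eq_iff_mul_eq_one]; exact ht2
  have htL : t ∈ L := hAL htA
  have hW₁L : W₁ ≤ L := hW₁A.trans hAL
  have hW₁Q : W₁ ≤ normalizer (Q : Set G) := hW₁L.trans hLQ
  set R := Q ⊔ W₁ with hR
  have hmemR : ∀ x, x ∈ R ↔ ∃ n ∈ Q, ∃ a ∈ W₁, n * a = x :=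
    Cfsg.Agent.Lib.Coprime.Coset.mem_sup_iff_of_le_normalizer hW₁Q
  have hQR : Q ≤ R := le_sup_left
  have hW₁R : W₁ ≤ R := le_sup_right
  have hRS : R ≤ S := sup_le hQS (hW₁A.trans hAS)
  have hRL : R ≤ L := hRS.trans hSL
  have hQconj : ∀ g ∈ L, ∀ q ∈ Q, g * q * g⁻¹ ∈ Q := fun g hg q hq => Q2_conj L hg hq
  have hyR : y ∈ normalizer (R : Set G) := by
    apply Cfsg.Agent.Lib.Coprime.Three.mem_normalizer_of_conj_mem
    intro r hr
    obtain ⟨q, hq, w, hw, rfl⟩ := (hmemR r).mp hr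
    have h1 : y * w * y⁻¹ * w⁻¹ ∈ Q := by
      have := inv_mem (hyW w hw)
      have e : (w * y * w⁻¹ * y⁻¹)⁻¹ = y * w * y⁻¹ * w⁻¹ := by group
      rwa [e] at this
    have h2 : y * (q * w) * y⁻¹ = (y * q * y⁻¹) * (y * w * y⁻¹ * w⁻¹) * w := by group
    rw [h2]
    exact mul_mem (hQR (mul_mem (hQconj y hyL q hq) h1)) (hW₁R hw)
  have htR : t ∈ normalizer (R : Set G) := by
    apply Cfsg.Agent.Lib.Coprime.Three.mem_normalizer_of_conj_mem
    intro r hr
    obtain ⟨q, hq, w, hw, rfl⟩ := (hmemR r).mp hr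
    have h1 : t * w * t⁻¹ = w := by
      rw [hAel.1 t htA w (hW₁A hw)]; group
    have h2 : t * (q * w) * t⁻¹ = (t * q * t⁻¹) * (t * w * t⁻¹) := by group
    rw [h2, h1]
    exact mul_mem (hQR (hQconj t htL q hq)) (hW₁R hw)
  -- the key coset property for `t`
  have hAR : A ⊓ R ≤ W₁ := by
    rintro x ⟨hxA, hxR⟩
    obtain ⟨q, hq, w, hw, rfl⟩ := (hmemR x).mp hxR
    have h1 : q ∈ A := by
      have : q = (q * w) * w⁻¹ := by group
      rw [this]
      exact mul_mem hxA (inv_mem (hW₁A hw))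
    exact mul_mem (hQW₁ ⟨hq, h1⟩) hw
  have hRA : ∀ r ∈ R, r⁻¹ * (t * r * t⁻¹) ∈ W₁ := by
    intro r hr
    refine hAR (mem_inf.mpr ⟨?_, ?_⟩)
    · have h1 : r⁻¹ * t * r ∈ A := by
        have := (mem_normalizer_iff.mp (hSA (inv_mem (hRS hr))) t).mp htA
        simpa using this
      have h2 : r⁻¹ * (t * r * t⁻¹) = (r⁻¹ * t * r) * t⁻¹ := by group
      rw [h2]
      exact mul_mem h1 (inv_mem htA)
    · exact mul_mem (inv_mem hr) ((mem_normalizer_iff.mp htR r).mp hr)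
  set W₂ := cj y W₁ with hW₂
  set A₂ := cj y A with hA₂
  set b := y * t * y⁻¹ with hb
  have hW₂A₂ : W₂ ≤ A₂ := by
    rintro x hx
    exact mem_cj.mpr (hW₁A (mem_cj.mp hx))
  have hbA₂ : b ∈ A₂ := conj_mem_cj htA
  have hA₂el : PP 2 A₂ := PP_cj hAel y
  have hW₁el : PP 2 W₁ := ⟨fun a ha c hc => hAel.1 a (hW₁A ha) c (hW₁A hc), fun a ha => hAel.2 a (hW₁A ha)⟩
  have hW₂el : PP 2 W₂ := PP_cj hW₁el y
  have hW₂R : W₂ ≤ R := by
    intro x hx
    rw [mem_cj] at hx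
    have h1 := (mem_normalizer_iff.mp hyR _).mp (hW₁R hx)
    have h2 : y * (y⁻¹ * x * y) * y⁻¹ = x := by group
    rwa [h2] at h1
  have hRB : ∀ r ∈ R, r⁻¹ * (b * r * b⁻¹) ∈ W₂ := by
    intro r hr
    have hr' : y⁻¹ * r * y ∈ R := by
      have := (mem_normalizer_iff.mp (inv_mem hyR) r).mp hr
      simpa using this
    have h1 := hRA _ hr'
    rw [hW₂, mem_cj]
    have h2 : y⁻¹ * (r⁻¹ * (b * r * b⁻¹)) * y = (y⁻¹ * r * y)⁻¹ * (t * (y⁻¹ * r * y) * t⁻¹) := by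
      rw [hb]; group
    rw [h2]
    exact h1
  have hb2 : b * b = 1 := by
    rw [hb]
    calc y * t * y⁻¹ * (y * t * y⁻¹) = y * (t * t) * y⁻¹ := by group
      _ = 1 := by rw [ht2]; group
  have hbL : b ∈ L := mul_mem (mul_mem hyL htL) (inv_mem hyL)
  -- numbers
  have thA : TH R A := hth.th hRS
  have thA₂ : TH R A₂ := thA.conj hyR
  set p := (centralizer (A₂ : Set G)).relIndex W₁ with hp
  set q := (centralizer (A : Set G)).relIndex W₂ with hq
  set s := (centralizer (W₂ : Set G)).relIndex W₁ with hs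
  set s' := (centralizer (W₁ : Set G)).relIndex W₂ with hs'
  have h1 : q ^ 2 ≤ (centralizer (W₂ : Set G)).relIndex A := thA W₂ hW₂R (elemOn_of_PP hW₂el)
  have h2 : p ^ 2 ≤ (centralizer (W₁ : Set G)).relIndex A₂ := thA₂ W₁ hW₁R (elemOn_of_PP hW₁el)
  have hidx : W₁.relIndex A = 2 := relIndex_two_of_hyperplane hW₁A htA htW₁ hy_
  have hidx2 : W₂.relIndex A₂ = 2 := by rw [hW₂, hA₂, cj_relIndex]; exact hidx
  have h3 : (centralizer (W₂ : Set G)).relIndex A ≤ s * 2 := by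
    have := relIndex_le_mul (centralizer (W₂ : Set G)) hW₁A
    rwa [hidx] at this
  have h4 : (centralizer (W₁ : Set G)).relIndex A₂ ≤ s' * 2 := by
    have := relIndex_le_mul (centralizer (W₁ : Set G)) hW₂A₂
    rwa [hidx2] at this
  have h5 : s ≤ p := relIndex_le_of_le (centralizer_le hW₂A₂) W₁
  have h6 : s' ≤ q := relIndex_le_of_le (centralizer_le hW₁A) W₂
  have hp0 : p ≠ 0 := Subgroup.index_ne_zero_of_finite
  have hq0 : q ≠ 0 := Subgroup.index_ne_zero_of_finite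
  have hs0 : s ≠ 0 := Subgroup.index_ne_zero_of_finite
  have hs'0 : s' ≠ 0 := Subgroup.index_ne_zero_of_finite
  obtain ⟨hp2, hq2, hsp, hsq'⟩ := num_lemma hp0 hq0 hs0 hs'0 (h1.trans h3) (h2.trans h4) h5 h6
  have hC₁eq : centralizer (A₂ : Set G) ⊓ W₁ = centralizer (W₂ : Set G) ⊓ W₁ :=
    inf_eq_of_relIndex_eq (centralizer_le hW₂A₂) hsp.symm
  have hC₂eq : centralizer (A : Set G) ⊓ W₂ = centralizer (W₁ : Set G) ⊓ W₂ :=
    inf_eq_of_relIndex_eq (centralizer_le hW₁A) hsq'.symm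
  set C₁ := centralizer (A₂ : Set G) ⊓ W₁ with hC₁
  set C₂ := centralizer (A : Set G) ⊓ W₂ with hC₂
  have hA' : ∀ r ∈ W₂, r⁻¹ * (t * r * t⁻¹) ∈ C₁ := by
    intro r hr
    have hx := hRA r (hW₂R hr)
    have hcm := comm_lemma hAel hW₂el htA hr (hW₁A hx) hq2
    rw [hC₁eq]
    refine mem_inf.mpr ⟨mem_centralizer_iff.mpr fun r₀ hr₀ => ?_, hx⟩
    exact (hcm r₀ hr₀).symm
  have hB' : ∀ r ∈ W₁, r⁻¹ * (b * r * b⁻¹) ∈ C₂ := by
    intro r hr
    have hx := hRB r (hW₁R hr)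
    have hcm := comm_lemma hA₂el hW₁el hbA₂ hr (hW₂A₂ hx) hp2
    rw [hC₂eq]
    refine mem_inf.mpr ⟨mem_centralizer_iff.mpr fun r₀ hr₀ => ?_, hx⟩
    exact (hcm r₀ hr₀).symm
  have hC₁W₁ : C₁ ≤ W₁ := inf_le_right
  have hC₂W₂ : C₂ ≤ W₂ := inf_le_right
  have hC₁el : PP 2 C₁ := ⟨fun a ha c hc => hW₁el.1 a (hC₁W₁ ha) c (hC₁W₁ hc), fun a ha => hW₁el.2 a (hC₁W₁ ha)⟩
  have hC₂el : PP 2 C₂ := ⟨fun a ha c hc => hW₂el.1 a (hC₂W₂ ha) c (hC₂W₂ hc), fun a ha => hW₂el.2 a (hC₂W₂ ha)⟩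
  set U := C₁ ⊔ C₂ with hU
  set P := W₁ ⊔ W₂ with hPd
  have hUP : U ≤ P := sup_le_sup hC₁W₁ hC₂W₂
  have hPR : P ≤ R := sup_le hW₁R hW₂R
  have hUcen : U ≤ centralizer (P : Set G) := by
    rw [hU, sup_le_iff]
    constructor
    · intro a ha
      refine mem_centralizer_sup (mem_centralizer_iff.mpr fun h hh => ?_)
        (mem_centralizer_iff.mpr fun h hh => ?_)
      · exact hW₁el.1 h hh a (hC₁W₁ ha)
      · exact mem_centralizer_iff.mp ha.1 h (hW₂A₂ hh)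
    · intro a ha
      refine mem_centralizer_sup (mem_centralizer_iff.mpr fun h hh => ?_)
        (mem_centralizer_iff.mpr fun h hh => ?_)
      · exact mem_centralizer_iff.mp ha.1 h (hW₁A hh)
      · exact hW₂el.1 h hh a (hC₂W₂ ha)
  have hUc : ∀ u ∈ U, ∀ g ∈ W₁ ⊔ W₂, u * g = g * u := fun u hu g hg =>
    (mem_centralizer_iff.mp (hUcen hu) g hg).symm
  have htU : ∀ u ∈ U, t * u * t⁻¹ = u := by
    have hle : U ≤ centralizer ({t} : Set G) := by
      rw [hU, sup_le_iff]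
      constructor
      · intro a ha
        rw [mem_centralizer_singleton_iff]
        exact hAel.1 _ (hW₁A (hC₁W₁ ha)) _ htA
      · intro a ha
        rw [mem_centralizer_singleton_iff]
        exact (mem_centralizer_iff.mp ha.1 t htA).symm
    intro u hu
    have := mem_centralizer_singleton_iff.mp (hle hu)
    rw [← this]; group
  have hbU : ∀ u ∈ U, b * u * b⁻¹ = u := by
    have hle : U ≤ centralizer ({b} : Set G) := by
      rw [hU, sup_le_iff]
      constructor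
      · intro a ha
        rw [mem_centralizer_singleton_iff]
        exact (mem_centralizer_iff.mp ha.1 b hbA₂).symm
      · intro a ha
        rw [mem_centralizer_singleton_iff]
        exact hA₂el.1 _ (hW₂A₂ (hC₂W₂ ha)) _ hbA₂
    intro u hu
    have := mem_centralizer_singleton_iff.mp (hle hu)
    rw [← this]; group
  have htP : ∀ g ∈ P, g⁻¹ * (t * g * t⁻¹) ∈ U := by
    refine comm_sup hUc ?_ (fun g hg => (le_sup_left : C₁ ≤ U) (hA' g hg))
    intro g hg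
    have : g⁻¹ * (t * g * t⁻¹) = 1 := by
      rw [hAel.1 t htA g (hW₁A hg)]; group
    rw [this]; exact one_mem _
  have hbP : ∀ g ∈ P, g⁻¹ * (b * g * b⁻¹) ∈ U := by
    refine comm_sup hUc (fun g hg => (le_sup_right : C₂ ≤ U) (hB' g hg)) ?_
    intro g hg
    have : g⁻¹ * (b * g * b⁻¹) = 1 := by
      rw [hA₂el.1 b hbA₂ g (hW₂A₂ hg)]; group
    rw [this]; exact one_mem _
  obtain ⟨a, o, ho, hco⟩ := exists_odd_part (t * b)
  have hPp : IsPGroup 2 P := hSp.to_le (hPR.trans hRS)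
  have hUp : IsPGroup 2 U := hPp.to_le hUP
  have hzP := dih_trivial (X := P) (Y := U) (t := t) (b := b) (n := 2 ^ a) hUp
    (fun y hy => by rw [htU y hy]; exact hy) (fun y hy => by rw [hbU y hy]; exact hy)
    (fun y hy => dih_cent (htU y hy) (hbU y hy) _) htP hbP ho hco
  have hPt : ∀ y ∈ P, t * y * t⁻¹ ∈ P := by
    intro g hg
    have : t * g * t⁻¹ = g * (g⁻¹ * (t * g * t⁻¹)) := by group
    rw [this]; exact mul_mem hg (hUP (htP g hg))
  have hPb : ∀ y ∈ P, b * y * b⁻¹ ∈ P := by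
    intro g hg
    have : b * g * b⁻¹ = g * (g⁻¹ * (b * g * b⁻¹)) := by group
    rw [this]; exact mul_mem hg (hUP (hbP g hg))
  have hzR := dih_trivial (X := R) (Y := P) (t := t) (b := b) (n := 2 ^ a) hPp hPt hPb hzP
    (fun r hr => (le_sup_left : W₁ ≤ P) (hRA r hr)) (fun r hr => (le_sup_right : W₂ ≤ P) (hRB r hr))
    ho hco
  have hzL : (t * b) ^ (2 ^ a) ∈ L := pow_mem (mul_mem htL hbL) _
  have hzQ : (t * b) ^ (2 ^ a) ∈ Q := by
    apply hc _ hzL
    intro q' hq'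
    have := hzR q' (hQR hq')
    calc (t * b) ^ (2 ^ a) * q' = ((t * b) ^ (2 ^ a) * q' * ((t * b) ^ (2 ^ a))⁻¹) * (t * b) ^ (2 ^ a) := by group
      _ = _ := by rw [this]
  have hcyy : (t * b) * y * y ∈ Q := by
    have e : (t * b) * y * y = t * y * t⁻¹ * y := by
      rw [hb, ht1]; group
    rw [e]; exact hty
  have hpow := pow_mul_mem (hLQ hyL) hcyy (2 ^ a)
  have hy2 : y ^ (2 * 2 ^ a) ∈ Q := by
    have := mul_mem (inv_mem hzQ) hpow
    simpa using this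
  have hcop : (2 * 2 ^ a).Coprime m := by
    rw [← pow_succ']
    exact Nat.Coprime.pow_left _ (Nat.coprime_two_left.mpr hm)
  exact hyQ (mem_of_coprime_pows hcop hy2 hymQ)

end Cfsg.Agent.Lib.SFree
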