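import Mathlib
import Cfsg.Agent.Lib.SFree.Step1

/-!
# Preliminaries for the rank-four case
-/

namespace Cfsg.Agent.Lib.SFree

open Subgroup Cfsg.Agent.Lib.PGroup.ZJ
open Cfsg.Agent.Lib.Basic.PCore
open scoped commutatorElement

variable {G : Type*} [Group G]

theorem nrm_inv_aux {W : Subgroup G} {y : G} (hW : PP 2 W) (hy : y ∈ normalizer (W : Set G)) {m : ℕ}
    (hym : ∀ w ∈ W, y ^ m * w * (y ^ m)⁻¹ = w) {w : G} (hw : w ∈ W) (n : ℕ) (hn : n ≤ m) :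
    nrm y⁻¹ w n * nrm y w (m - n + 1) = nrm y w m * w := by
  induction n with
  | zero => simp [nrm_succ, hym w hw]
  | succ n ih =>
    have h0 := ih (by omega)
    have hyi : y⁻¹ ∈ normalizer (W : Set G) := inv_mem hy
    obtain ⟨k, hk⟩ : ∃ k, m - n = k + 1 := ⟨m - n - 1, by omega⟩
    have hk2 : m - (n + 1) + 1 = k + 1 := by omega
    rw [hk2]
    rw [hk] at h0
    rw [nrm_succ y⁻¹, ← h0]
    rw [nrm_succ y w (k + 1)]
    have ha : y ^ (k + 1) * w * (y ^ (k + 1))⁻¹ = y⁻¹ ^ n * w * (y⁻¹ ^ n)⁻¹ := by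
      have h1 : m = n + (k + 1) := by omega
      have h2 := hym w hw
      rw [h1, pow_add] at h2
      have h3 : y⁻¹ ^ n = (y ^ n)⁻¹ := inv_pow y n
      rw [h3]
      calc y ^ (k + 1) * w * (y ^ (k + 1))⁻¹
          = (y ^ n)⁻¹ * (y ^ n * y ^ (k + 1) * w * (y ^ n * y ^ (k + 1))⁻¹) * ((y ^ n)⁻¹)⁻¹ := by group
        _ = (y ^ n)⁻¹ * w * ((y ^ n)⁻¹)⁻¹ := by rw [h2]
    rw [ha]
    have hamem : y⁻¹ ^ n * w * (y⁻¹ ^ n)⁻¹ ∈ W := pow_conj_mem hyi n hw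
    have hc := hW.1 _ hamem _ (nrm_mem hy hw (k + 1))
    rw [mul_assoc, hc]

theorem nrm_inv_eq {W : Subgroup G} {y : G} (hW : PP 2 W) (hy : y ∈ normalizer (W : Set G)) {m : ℕ}
    (hym : ∀ w ∈ W, y ^ m * w * (y ^ m)⁻¹ = w) {w : G} (hw : w ∈ W) :
    nrm y⁻¹ w m = nrm y w m := by
  have h := nrm_inv_aux hW hy hym hw m le_rfl
  simp only [Nat.sub_self, zero_add] at h
  have h1 : nrm y w 1 = w := by simp [nrm_succ]
  rw [h1] at h
  exact mul_right_cancel h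

/-- Conjugation by an inverting involution. -/
theorem inv_conj_pow {t z : G} (htz : t * z * t⁻¹ = z⁻¹) (i : ℕ) (v : G) :
    t * (z ^ i * v * (z ^ i)⁻¹) * t⁻¹ = (z⁻¹) ^ i * (t * v * t⁻¹) * ((z⁻¹) ^ i)⁻¹ := by
  have h : t * z ^ i * t⁻¹ = (z⁻¹) ^ i := by rw [← conj_pow, htz]
  calc t * (z ^ i * v * (z ^ i)⁻¹) * t⁻¹
      = (t * z ^ i * t⁻¹) * (t * v * t⁻¹) * (t * z ^ i * t⁻¹)⁻¹ := by group
    _ = _ := by rw [h]

theorem t_nrm {t z : G} (htz : t * z * t⁻¹ = z⁻¹) (v : G) (n : ℕ) :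
    t * nrm z v n * t⁻¹ = nrm z⁻¹ (t * v * t⁻¹) n := by
  induction n with
  | zero => simp
  | succ n ih =>
    rw [nrm_succ, nrm_succ, ← ih, ← inv_conj_pow htz]
    group

/-- `t` normalizes the kernel of the norm. -/
theorem t_mem_nrmKer {W : Subgroup G} {t z : G} (hW : PP 2 W) (hz : z ∈ normalizer (W : Set G))
    (htW : t ∈ normalizer (W : Set G)) {o : ℕ} (hzo : z ^ o = 1) (htz : t * z * t⁻¹ = z⁻¹) {v : G}
    (hv : v ∈ nrmKer W z o hW hz) : t * v * t⁻¹ ∈ nrmKer W z o hW hz := by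
  have hym : ∀ w ∈ W, z ^ o * w * (z ^ o)⁻¹ = w := by
    intro w _; rw [hzo]; group
  have h1 : t * v * t⁻¹ ∈ W := (mem_normalizer_iff.mp htW v).mp hv.1
  refine ⟨h1, ?_⟩
  rw [← nrm_inv_eq hW hz hym h1, ← t_nrm htz, hv.2]
  group

theorem z_mem_nrmKer {W : Subgroup G} {z : G} (hW : PP 2 W) (hz : z ∈ normalizer (W : Set G))
    {o : ℕ} (hzo : z ^ o = 1) {v : G}
    (hv : v ∈ nrmKer W z o hW hz) : z * v * z⁻¹ ∈ nrmKer W z o hW hz := by
  have hym : ∀ w ∈ W, z ^ o * w * (z ^ o)⁻¹ = w := by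
    intro w _; rw [hzo]; group
  refine ⟨(mem_normalizer_iff.mp hz v).mp hv.1, ?_⟩
  rw [nrm_shift_m hW hz hym hv.1, hv.2]

/-- Powers: a fixed element stays fixed. -/
theorem pow_conj_fixed {g v : G} (h : g * v * g⁻¹ = v) (n : ℕ) : g ^ n * v * (g ^ n)⁻¹ = v := by
  induction n with
  | zero => simp
  | succ n ih =>
    rw [pow_succ]
    calc g ^ n * g * v * (g ^ n * g)⁻¹ = g ^ n * (g * v * g⁻¹) * (g ^ n)⁻¹ := by group
      _ = v := by rw [h, ih]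

/-- If `z²` fixes `v` and `z` has odd order then `z` fixes `v`. -/
theorem fixed_of_sq {z v : G} {o : ℕ} (ho : Odd o) (hzo : z ^ o = 1)
    (h : (z * z) * v * (z * z)⁻¹ = v) : z * v * z⁻¹ = v := by
  obtain ⟨j, rfl⟩ := ho
  have h1 := pow_conj_fixed h (j + 1)
  have h2 : (z * z) ^ (j + 1) = z := by
    have h3 : (z * z) ^ (j + 1) = z ^ (2 * j + 1) * z := by
      rw [← pow_two, ← pow_mul, show 2 * (j + 1) = 2 * j + 1 + 1 by ring, pow_succ]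
    rw [h3, hzo, one_mul]
  rwa [h2] at h1

end Cfsg.Agent.Lib.SFree
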