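import Mathlib
import Cfsg.Agent.Lib.SFree.Core1

/-!
# The rank-four case
-/

namespace Cfsg.Agent.Lib.SFree

open Subgroup Cfsg.Agent.Lib.PGroup.ZJ
open Cfsg.Agent.Lib.Basic.PCore
open scoped commutatorElement

variable {G : Type*} [Group G] [Finite G]

theorem card_bound {M : Subgroup G} {t z : G} (hM : PP 2 M) (hzM : ∀ v ∈ M, z * v * z⁻¹ ∈ M)
    (hinter : ∀ x ∈ M, t * x * t⁻¹ = x → t * (z⁻¹ * x * z) * t⁻¹ = z⁻¹ * x * z → x = 1)
    (hr : (centralizer ({t} : Set G)).relIndex M = 4) : Nat.card M ≤ 16 := by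
  classical
  set F := centralizer ({t} : Set G) ⊓ M with hF
  have hFM : F ≤ M := inf_le_right
  have hFt : ∀ a ∈ F, t * a * t⁻¹ = a := by
    intro a ha
    have := mem_centralizer_singleton_iff.mp ha.1
    rw [← this]; group
  let f : F × F → M := fun p => ⟨(p.1 : G) * (z * p.2 * z⁻¹), mul_mem (hFM p.1.2) (hzM _ (hFM p.2.2))⟩
  have hf : Function.Injective f := by
    rintro ⟨⟨a₁, h₁⟩, ⟨b₁, k₁⟩⟩ ⟨⟨a₂, h₂⟩, ⟨b₂, k₂⟩⟩ h
    have h0 : a₁ * (z * b₁ * z⁻¹) = a₂ * (z * b₂ * z⁻¹) := congrArg Subtype.val h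
    set x := a₂⁻¹ * a₁ with hx
    have hxM : x ∈ M := mul_mem (inv_mem (hFM h₂)) (hFM h₁)
    have hxF : x ∈ F := mul_mem (inv_mem h₂) h₁
    have hxe : x = z * (b₂ * b₁⁻¹) * z⁻¹ := by
      have h3 : a₁ = a₂ * (z * b₂ * z⁻¹) * (z * b₁ * z⁻¹)⁻¹ := by rw [← h0]; group
      rw [hx, h3]; group
    have hzx : z⁻¹ * x * z = b₂ * b₁⁻¹ := by rw [hxe]; group
    have hx1 : x = 1 := by
      apply hinter x hxM (hFt x hxF)
      rw [hzx]
      exact hFt _ (mul_mem k₂ (inv_mem k₁))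
    have ha : a₁ = a₂ := by
      have : a₂⁻¹ * a₁ = 1 := hx1
      rw [inv_mul_eq_one] at this
      exact this.symm
    have hb : b₁ = b₂ := by
      rw [hxe] at hx1
      have h4 : b₂ * b₁⁻¹ = 1 := by
        have h5 : z⁻¹ * (z * (b₂ * b₁⁻¹) * z⁻¹) * z = z⁻¹ * 1 * z := by rw [hx1]
        simpa [mul_assoc] using h5
      rw [mul_inv_eq_one] at h4
      exact h4.symm
    subst ha; subst hb; rfl
  have hcard : Nat.card F * Nat.card F ≤ Nat.card M := by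
    have := Nat.card_le_card_of_injective f hf
    rwa [Nat.card_prod] at this
  have h1 : F.relIndex M * Nat.card F = Nat.card M := by
    have := Subgroup.index_mul_card (F.subgroupOf M)
    rw [Nat.card_congr (Subgroup.subgroupOfEquivOfLe hFM).toEquiv] at this
    exact this
  rw [hF, Subgroup.inf_relIndex_right, hr] at h1
  rw [← hF] at h1
  have hpos : 0 < Nat.card F := Nat.card_pos
  have h2 : Nat.card F ≤ 4 := by
    rw [← h1] at hcard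
    exact Nat.le_of_mul_le_mul_right hcard hpos
  omega

theorem pigeon {R₀ C : Subgroup G} (e : ℕ → G) (heR : ∀ i, e i ∈ R₀) (heC : ∀ i, e i ∉ C)
    (hx : C.relIndex R₀ ≤ 4) : ∃ i j, i < j ∧ j ≤ 3 ∧ (e i)⁻¹ * e j ∈ C := by
  classical
  let g : ℕ → R₀ := fun k => Nat.casesOn k 1 (fun i => ⟨e i, heR i⟩)
  let f : Fin 5 → (↥R₀ ⧸ C.subgroupOf R₀) := fun k => (QuotientGroup.mk (g k) : ↥R₀ ⧸ C.subgroupOf R₀)
  haveI := Fintype.ofFinite (↥R₀ ⧸ C.subgroupOf R₀)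
  have hcard : Fintype.card (↥R₀ ⧸ C.subgroupOf R₀) < Fintype.card (Fin 5) := by
    rw [← Nat.card_eq_fintype_card, Fintype.card_fin]
    have : Nat.card (↥R₀ ⧸ C.subgroupOf R₀) = C.relIndex R₀ := rfl
    omega
  obtain ⟨x, y, hne, hxy⟩ := Fintype.exists_ne_map_eq_of_card_lt f hcard
  have hmain : ∀ x y : ℕ, x < y → y ≤ 4 → (g x).1⁻¹ * (g y).1 ∈ C →
      ∃ i j, i < j ∧ j ≤ 3 ∧ (e i)⁻¹ * e j ∈ C := by
    intro x y hlt hle hm
    rcases y with _ | b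
    · omega
    rcases x with _ | a
    · exfalso
      have : e b ∈ C := by simpa [g] using hm
      exact heC b this
    · exact ⟨a, b, by omega, by omega, by simpa [g] using hm⟩
  have hxyC : (g x).1⁻¹ * (g y).1 ∈ C := by
    have := QuotientGroup.eq.mp hxy
    exact this
  rcases lt_or_gt_of_ne (fun h => hne (Fin.ext h) : (x : ℕ) ≠ y) with h | h
  · exact hmain x y h (by omega) hxyC
  · refine hmain y x h (by omega) ?_
    have := inv_mem hxyC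
    simpa using this

theorem htV' {V M : Subgroup G} (t : G) (htV : t ∈ normalizer (V : Set G)) (hMV : M ≤ V) {q : G} (hq : q ∈ M) :
    t * q * t⁻¹ ∈ V := (mem_normalizer_iff.mp htV q).mp (hMV hq)

/-- **The rank-four case**. -/
theorem rank4 {L V R : Subgroup G} {t z e : G} {o : ℕ}
    (hP : NoPat L) (hVL : V ≤ L) (hV : PP 2 V) (hVR : V ≤ R) (hRp : IsPGroup 2 R)
    (hRV : R ≤ normalizer (V : Set G)) (hth : TH R V) (htL : t ∈ L) (hzL : z ∈ L)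
    (htV : t ∈ normalizer (V : Set G)) (hzV : z ∈ normalizer (V : Set G))
    (hzR : z ∈ normalizer (R : Set G))
    (ht2 : t * t = 1) (htz : t * z * t⁻¹ = z⁻¹) (ho : Odd o) (hzo : z ^ o = 1)
    (heR : e ∈ R) (hte : t * e * t⁻¹ = e)
    (hfix : ∀ v ∈ V, t * v * t⁻¹ = v ↔ e * v * e⁻¹ = v)
    (hrk : (centralizer ({t} : Set G)).relIndex V ≤ 4) :
    ∀ v ∈ V, z * v * z⁻¹ = v := by
  classical
  haveI : Fact (Nat.Prime 2) := ⟨Nat.prime_two⟩
  by_contra hcon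
  push Not at hcon
  obtain ⟨v₀, hv₀, hv₀z⟩ := hcon
  have ht1 : t⁻¹ = t := by rw [inv_eq_iff_mul_eq_one]; exact ht2
  have hym : ∀ w ∈ V, z ^ o * w * (z ^ o)⁻¹ = w := by
    intro w _; rw [hzo]; group
  set M := nrmKer V z o hV hzV with hM
  have hMV : M ≤ V := fun x hx => hx.1
  set C₀ := V ⊓ centralizer ({z} : Set G) with hC₀
  have hmemC₀ : ∀ x, x ∈ C₀ ↔ x ∈ V ∧ z * x * z⁻¹ = x := by
    intro x
    rw [hC₀, mem_inf, mem_centralizer_singleton_iff]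
    constructor
    · rintro ⟨h1, h2⟩
      exact ⟨h1, by rw [← h2]; group⟩
    · rintro ⟨h1, h2⟩
      refine ⟨h1, ?_⟩
      calc x * z = (z * x * z⁻¹) * z := by rw [h2]
        _ = z * x := by group
  have hC₀V : C₀ ≤ V := inf_le_left
  have hinter : ∀ x ∈ M, z * x * z⁻¹ = x → x = 1 := by
    intro x hx h
    have h1 := nrm_of_fixed hV ho hx.1 h
    rw [hx.2] at h1
    exact h1.symm
  have hN : ∀ v ∈ V, nrm z v o ∈ C₀ := by
    intro v hv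
    exact (hmemC₀ _).mpr ⟨nrm_mem hzV hv o, conj_nrm_eq hV hzV hym hv⟩
  have hdec : ∀ v ∈ V, v * nrm z v o ∈ M := by
    intro v hv
    have hn := hN v hv
    refine ⟨mul_mem hv (hC₀V hn), ?_⟩
    rw [nrm_mul hV hzV hv (hC₀V hn), nrm_of_fixed hV ho (hC₀V hn) ((hmemC₀ _).mp hn).2]
    exact PP.sq hV (hC₀V hn)
  have hrank_ge : ∀ W : Subgroup G, W ≤ V → t ∈ normalizer (W : Set G) → z ∈ normalizer (W : Set G) →
      (∃ w ∈ W, z * w * z⁻¹ ≠ w) → 4 ≤ (centralizer ({t} : Set G)).relIndex W := by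
    intro W hWV htW hzW ⟨w, hw, hwz⟩
    by_contra hlt
    push Not at hlt
    have hWel : PP 2 W := ⟨fun a ha b hb => hV.1 a (hWV ha) b (hWV hb), fun a ha => hV.2 a (hWV ha)⟩
    have hrkf := rank_form hWel htW hlt
    have hfx := trans_core hP (hWV.trans hVL) hWel htL hzL htW hzW
      (fun w _ => by
        calc t * (t * w * t⁻¹) * t⁻¹ = (t * t) * w * (t * t)⁻¹ := by group
          _ = w := by rw [ht2]; group)
      (fun w _ => by
        calc t * (z * w * z⁻¹) * t⁻¹ = (t * z * t⁻¹) * (t * w * t⁻¹) * (t * z * t⁻¹)⁻¹ := by group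
          _ = z⁻¹ * (t * w * t⁻¹) * z := by rw [htz]; group)
      ho (fun w hw => hym w (hWV hw)) hrkf
    exact hwz (hfx w hw)
  have hMt : ∀ v ∈ M, t * v * t⁻¹ ∈ M := fun v hv => t_mem_nrmKer hV hzV htV hzo htz hv
  have hMz : ∀ v ∈ M, z * v * z⁻¹ ∈ M := fun v hv => z_mem_nrmKer hV hzV hzo hv
  have htMN : t ∈ normalizer (M : Set G) := Cfsg.Agent.Lib.Coprime.Three.mem_normalizer_of_conj_mem hMt
  have hzMN : z ∈ normalizer (M : Set G) := Cfsg.Agent.Lib.Coprime.Three.mem_normalizer_of_conj_mem hMz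
  have hx₀ := comm_mem_nrmKer hV hzV hym hv₀
  have hx₀1 : v₀⁻¹ * (z * v₀ * z⁻¹) ≠ 1 := by
    intro h
    rw [inv_mul_eq_one] at h
    exact hv₀z h.symm
  have hrM : 4 ≤ (centralizer ({t} : Set G)).relIndex M :=
    hrank_ge M hMV htMN hzMN ⟨_, hx₀, fun h => hx₀1 (hinter _ hx₀ h)⟩
  have hrM2 : (centralizer ({t} : Set G)).relIndex M ≤ (centralizer ({t} : Set G)).relIndex V :=
    Cfsg.Agent.Lib.Coprime.Factor.relIndex_le_relIndex_of_le _ hMV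
  have hrM4 : (centralizer ({t} : Set G)).relIndex M = 4 := by omega
  have hrV4 : (centralizer ({t} : Set G)).relIndex V = 4 := by omega
  have hVfac := Cfsg.Agent.Lib.Coprime.Factor.exists_mul_of_relIndex_eq (H := centralizer ({t} : Set G))
    hMV (by omega)
  have htcen : ∀ f, f ∈ centralizer ({t} : Set G) → t * f * t⁻¹ = f := by
    intro f hf
    have := mem_centralizer_singleton_iff.mp hf
    rw [← this]; group
  have hzt : z * t = t * z⁻¹ := by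
    calc z * t = z * t⁻¹ := by rw [ht1]
      _ = (t * t) * z * t⁻¹ := by rw [ht2, one_mul]
      _ = t * (t * z * t⁻¹) := by group
      _ = t * z⁻¹ := by rw [htz]
  have hztconj : ∀ x, z * (t * x * t⁻¹) * z⁻¹ = t * (z⁻¹ * x * z) * t⁻¹ := by
    intro x
    calc z * (t * x * t⁻¹) * z⁻¹ = (z * t) * x * (z * t)⁻¹ := by group
      _ = (t * z⁻¹) * x * (t * z⁻¹)⁻¹ := by rw [hzt]
      _ = _ := by group
  have hztinv : ∀ x, z⁻¹ * x * z = z⁻¹ * x * z⁻¹⁻¹ := by intro x; group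
  have htC₀ : ∀ x ∈ C₀, t * x * t⁻¹ = x := by
    intro x hx
    obtain ⟨hxV, hxz⟩ := (hmemC₀ x).mp hx
    obtain ⟨q, hq, hf⟩ := hVfac x hxV
    have hfV : q⁻¹ * x ∈ V := mul_mem (inv_mem (hMV hq)) hxV
    have hft := htcen _ hf
    have hzinv : z⁻¹ * x * z = x := by
      calc z⁻¹ * x * z = z⁻¹ * (z * x * z⁻¹) * z := by rw [hxz]
        _ = x := by group
    have hφ1 : x⁻¹ * (t * x * t⁻¹) = q⁻¹ * (t * q * t⁻¹) := by
      have e1 : t * x * t⁻¹ = (t * q * t⁻¹) * (t * (q⁻¹ * x) * t⁻¹) := by group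
      rw [e1, hft]
      have e2 := hV.1 _ (htV' t htV hMV hq) _ hfV
      have e4 := hV.1 _ (inv_mem hxV) _ (inv_mem (hMV hq))
      calc x⁻¹ * ((t * q * t⁻¹) * (q⁻¹ * x)) = x⁻¹ * ((q⁻¹ * x) * (t * q * t⁻¹)) := by rw [e2]
        _ = (x⁻¹ * q⁻¹) * x * (t * q * t⁻¹) := by group
        _ = (q⁻¹ * x⁻¹) * x * (t * q * t⁻¹) := by rw [e4]
        _ = _ := by group
    have hφM : x⁻¹ * (t * x * t⁻¹) ∈ M := by
      rw [hφ1]; exact mul_mem (inv_mem hq) (hMt q hq)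
    have hφfix : z * (x⁻¹ * (t * x * t⁻¹)) * z⁻¹ = x⁻¹ * (t * x * t⁻¹) := by
      have e3 : z * (x⁻¹ * (t * x * t⁻¹)) * z⁻¹ = (z * x * z⁻¹)⁻¹ * (z * (t * x * t⁻¹) * z⁻¹) := by group
      rw [e3, hxz, hztconj, hzinv]
    have h1 := hinter _ hφM hφfix
    rw [inv_mul_eq_one] at h1
    exact h1.symm
  have heC₀ : ∀ x ∈ C₀, e * x * e⁻¹ = x := fun x hx =>
    (hfix x (hC₀V hx)).mp (htC₀ x hx)
  -- the group generated by the conjugates of `e`
  set es : ℕ → G := fun i => z ^ i * e * (z ^ i)⁻¹ with hes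
  set R₀ := closure (Set.range es) with hR₀
  have hesR₀ : ∀ i, es i ∈ R₀ := fun i => subset_closure ⟨i, rfl⟩
  have hR₀R : R₀ ≤ R := by
    rw [hR₀, closure_le]
    rintro _ ⟨i, rfl⟩
    exact pow_conj_mem hzR i heR
  have hR₀zc : ∀ r ∈ R₀, z * r * z⁻¹ ∈ R₀ := by
    intro r hr
    induction hr using closure_induction with
    | mem x hx =>
      obtain ⟨i, rfl⟩ := hx
      have : z * es i * z⁻¹ = es (i + 1) := by
        simp only [hes, pow_succ']; group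
      rw [this]; exact hesR₀ _
    | one => simp
    | mul a b _ _ ha hb =>
      have : z * (a * b) * z⁻¹ = (z * a * z⁻¹) * (z * b * z⁻¹) := by group
      rw [this]; exact mul_mem ha hb
    | inv a _ ha =>
      have : z * a⁻¹ * z⁻¹ = (z * a * z⁻¹)⁻¹ := by group
      rw [this]; exact inv_mem ha
  have hzR₀N : z ∈ normalizer (R₀ : Set G) :=
    Cfsg.Agent.Lib.Coprime.Three.mem_normalizer_of_conj_mem hR₀zc
  have hzinv : z⁻¹ = z ^ (o - 1) := by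
    obtain ⟨j, rfl⟩ := ho
    have : 2 * j + 1 - 1 = 2 * j := by omega
    rw [this]
    rw [inv_eq_iff_mul_eq_one, ← pow_succ']
    exact hzo
  have hR₀tc : ∀ r ∈ R₀, t * r * t⁻¹ ∈ R₀ := by
    intro r hr
    induction hr using closure_induction with
    | mem x hx =>
      obtain ⟨i, rfl⟩ := hx
      have h1 : t * es i * t⁻¹ = (z⁻¹) ^ i * e * ((z⁻¹) ^ i)⁻¹ := by
        simp only [hes]
        rw [inv_conj_pow htz, hte]
      have h2 : (z⁻¹) ^ i = z ^ ((o - 1) * i) := by rw [pow_mul, ← hzinv]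
      rw [h1, h2]
      exact hesR₀ _
    | one => simp
    | mul a b _ _ ha hb =>
      have : t * (a * b) * t⁻¹ = (t * a * t⁻¹) * (t * b * t⁻¹) := by group
      rw [this]; exact mul_mem ha hb
    | inv a _ ha =>
      have : t * a⁻¹ * t⁻¹ = (t * a * t⁻¹)⁻¹ := by group
      rw [this]; exact inv_mem ha
  have hR₀cen : R₀ ≤ centralizer (C₀ : Set G) := by
    rw [hR₀, closure_le]
    rintro _ ⟨i, rfl⟩
    refine mem_centralizer_iff.mpr fun x hx => ?_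
    have hxz := ((hmemC₀ x).mp hx).2
    have h1 := pow_conj_fixed hxz i
    have h2 : (z ^ i)⁻¹ * x * z ^ i = x := by
      calc (z ^ i)⁻¹ * x * z ^ i = (z ^ i)⁻¹ * (z ^ i * x * (z ^ i)⁻¹) * z ^ i := by rw [h1]
        _ = x := by group
    have h3 : es i * x * (es i)⁻¹ = x := by
      simp only [hes]
      calc z ^ i * e * (z ^ i)⁻¹ * x * (z ^ i * e * (z ^ i)⁻¹)⁻¹
          = z ^ i * (e * ((z ^ i)⁻¹ * x * z ^ i) * e⁻¹) * (z ^ i)⁻¹ := by group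
        _ = x := by rw [h2, heC₀ x hx, h1]
    calc x * es i = (es i * x * (es i)⁻¹) * es i := by rw [h3]
      _ = es i * x := by group
  have hR₀x : ∀ r ∈ R₀, ∀ x ∈ C₀, r * x * r⁻¹ = x := by
    intro r hr x hx
    have := mem_centralizer_iff.mp (hR₀cen hr) x hx
    rw [← this]; group
  have hRVc : ∀ r ∈ R, ∀ v ∈ V, r * v * r⁻¹ ∈ V := fun r hr v hv =>
    (mem_normalizer_iff.mp (hRV hr) v).mp hv
  -- the subgroup `Ũ`
  let Ut : Subgroup G :=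
    { carrier := {v | v ∈ V ∧ ∀ r ∈ R₀, v⁻¹ * (r * v * r⁻¹) ∈ C₀}
      mul_mem' := by
        rintro a c ⟨h1, h2⟩ ⟨h3, h4⟩
        refine ⟨mul_mem h1 h3, fun r hr => ?_⟩
        have h5 := hV.1 _ (mul_mem (inv_mem h1) (hRVc r (hR₀R hr) a h1)) _ (inv_mem h3)
        have e1 : (a * c)⁻¹ * (r * (a * c) * r⁻¹)
            = c⁻¹ * (a⁻¹ * (r * a * r⁻¹)) * (r * c * r⁻¹) := by group
        rw [e1, ← h5]
        have e2 : a⁻¹ * (r * a * r⁻¹) * c⁻¹ * (r * c * r⁻¹)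
            = (a⁻¹ * (r * a * r⁻¹)) * (c⁻¹ * (r * c * r⁻¹)) := by group
        rw [e2]
        exact mul_mem (h2 r hr) (h4 r hr)
      one_mem' := ⟨one_mem _, fun r _ => by simp [one_mem]⟩
      inv_mem' := by
        rintro a ⟨h1, h2⟩
        refine ⟨inv_mem h1, fun r hr => ?_⟩
        have h5 := hV.1 _ h1 _ (inv_mem (hRVc r (hR₀R hr) a h1))
        have e1 : a⁻¹⁻¹ * (r * a⁻¹ * r⁻¹) = a * (r * a * r⁻¹)⁻¹ := by group
        rw [e1, h5]
        have e2 : (r * a * r⁻¹)⁻¹ * a = (a⁻¹ * (r * a * r⁻¹))⁻¹ := by group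
        rw [e2]
        exact inv_mem (h2 r hr) }
  have hmemUt : ∀ v, v ∈ Ut ↔ v ∈ V ∧ ∀ r ∈ R₀, v⁻¹ * (r * v * r⁻¹) ∈ C₀ := fun v => Iff.rfl
  have hC₀Ut : C₀ ≤ Ut := by
    intro x hx
    refine (hmemUt x).mpr ⟨hC₀V hx, fun r hr => ?_⟩
    rw [hR₀x r hr x hx]
    simp [one_mem]
  have htC₀' : ∀ x ∈ C₀, t * x * t⁻¹ ∈ C₀ := fun x hx => by rw [htC₀ x hx]; exact hx
  have hzC₀' : ∀ x ∈ C₀, z * x * z⁻¹ ∈ C₀ := fun x hx => by rw [((hmemC₀ x).mp hx).2]; exact hx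
  have hUtt : ∀ v ∈ Ut, t * v * t⁻¹ ∈ Ut := by
    intro v hv
    obtain ⟨h1, h2⟩ := (hmemUt v).mp hv
    refine (hmemUt _).mpr ⟨(mem_normalizer_iff.mp htV v).mp h1, fun r hr => ?_⟩
    have hr' : t⁻¹ * r * t ∈ R₀ := by
      rw [ht1]
      have := hR₀tc r hr
      rwa [ht1] at this
    have h3 := htC₀' _ (h2 _ hr')
    have e1 : (t * v * t⁻¹)⁻¹ * (r * (t * v * t⁻¹) * r⁻¹)
        = t * (v⁻¹ * ((t⁻¹ * r * t) * v * (t⁻¹ * r * t)⁻¹)) * t⁻¹ := by group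
    rw [e1]
    exact h3
  have hUtz : ∀ v ∈ Ut, z * v * z⁻¹ ∈ Ut := by
    intro v hv
    obtain ⟨h1, h2⟩ := (hmemUt v).mp hv
    refine (hmemUt _).mpr ⟨(mem_normalizer_iff.mp hzV v).mp h1, fun r hr => ?_⟩
    have hr' : z⁻¹ * r * z ∈ R₀ := by
      have := (mem_normalizer_iff.mp (inv_mem hzR₀N) r).mp hr
      simpa using this
    have h3 := hzC₀' _ (h2 _ hr')
    have e1 : (z * v * z⁻¹)⁻¹ * (r * (z * v * z⁻¹) * r⁻¹)
        = z * (v⁻¹ * ((z⁻¹ * r * z) * v * (z⁻¹ * r * z)⁻¹)) * z⁻¹ := by group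
    rw [e1]
    exact h3
  set M₂ := Ut ⊓ M with hM₂
  have hM₂M : M₂ ≤ M := inf_le_right
  have hM₂t : ∀ v ∈ M₂, t * v * t⁻¹ ∈ M₂ := fun v hv => ⟨hUtt v hv.1, hMt v hv.2⟩
  have hM₂z : ∀ v ∈ M₂, z * v * z⁻¹ ∈ M₂ := fun v hv => ⟨hUtz v hv.1, hMz v hv.2⟩
  have htM₂N : t ∈ normalizer (M₂ : Set G) :=
    Cfsg.Agent.Lib.Coprime.Three.mem_normalizer_of_conj_mem hM₂t
  have hzM₂N : z ∈ normalizer (M₂ : Set G) :=
    Cfsg.Agent.Lib.Coprime.Three.mem_normalizer_of_conj_mem hM₂z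
  -- nontriviality
  have hSN : R₀ ⊔ V ≤ normalizer (C₀ : Set G) := by
    rw [sup_le_iff]
    constructor
    · intro r hr
      apply Cfsg.Agent.Lib.Coprime.Three.mem_normalizer_of_conj_mem
      intro x hx
      rw [hR₀x r hr x hx]; exact hx
    · intro a ha
      apply Cfsg.Agent.Lib.Coprime.Three.mem_normalizer_of_conj_mem
      intro x hx
      rw [hV.1 a ha x (hC₀V hx)]
      simpa using hx
  have hSNV : R₀ ⊔ V ≤ normalizer (V : Set G) :=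
    sup_le (hR₀R.trans hRV) (hVR.trans hRV)
  have hVC₀ : ¬ V ≤ C₀ := fun h => hv₀z ((hmemC₀ _).mp (h hv₀)).2
  obtain ⟨z₀, hz₀V, hz₀C, hz₀c⟩ := Cfsg.Agent.Lib.PGroup.ZJ.exists_central_mod
    (S := R₀ ⊔ V) (V := C₀) (W := V) (p := 2)
    (hRp.to_le (sup_le hR₀R hVR))
    (fun s hs v hv => (mem_normalizer_iff.mp (hSN hs) v).mp hv)
    (fun s hs v hv => (mem_normalizer_iff.mp (hSNV hs) v).mp hv) le_sup_right hVC₀
  have hz₀Ut : z₀ ∈ Ut := by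
    refine (hmemUt _).mpr ⟨hz₀V, fun r hr => ?_⟩
    have h1 := inv_mem (hz₀c r (le_sup_left (a := R₀) (b := V) hr))
    have h2 : (⁅z₀, r⁆)⁻¹ = (r * z₀ * r⁻¹) * z₀⁻¹ := by
      rw [commutatorElement_def]; group
    rw [h2, hV.1 _ (hRVc r (hR₀R hr) z₀ hz₀V) _ (inv_mem hz₀V)] at h1
    exact h1
  have hm₂M := hdec z₀ hz₀V
  have hm₂Ut : z₀ * nrm z z₀ o ∈ Ut := mul_mem hz₀Ut (hC₀Ut (hN z₀ hz₀V))
  have hm₂ne : z * (z₀ * nrm z z₀ o) * z⁻¹ ≠ z₀ * nrm z z₀ o := by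
    intro h
    have h1 := hinter _ hm₂M h
    apply hz₀C
    have h2 : z₀ = (nrm z z₀ o)⁻¹ := eq_inv_of_mul_eq_one_left h1
    rw [h2]
    exact inv_mem (hN z₀ hz₀V)
  have hrM₂ : 4 ≤ (centralizer ({t} : Set G)).relIndex M₂ :=
    hrank_ge M₂ (hM₂M.trans hMV) htM₂N hzM₂N ⟨_, ⟨hm₂Ut, hm₂M⟩, hm₂ne⟩
  have hrM₂2 : (centralizer ({t} : Set G)).relIndex M₂ ≤ (centralizer ({t} : Set G)).relIndex M :=
    Cfsg.Agent.Lib.Coprime.Factor.relIndex_le_relIndex_of_le _ hM₂M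
  have hMfac := Cfsg.Agent.Lib.Coprime.Factor.exists_mul_of_relIndex_eq (H := centralizer ({t} : Set G))
    hM₂M (by omega)
  have hkt : ∀ k ∈ M, k⁻¹ * (t * k * t⁻¹) ∈ M₂ := by
    intro k hk
    obtain ⟨q, hq, hf⟩ := hMfac k hk
    have hft := htcen _ hf
    have hqV := hMV (hM₂M hq)
    have hkV := hMV hk
    have hfV : q⁻¹ * k ∈ V := mul_mem (inv_mem hqV) hkV
    have e1 : t * k * t⁻¹ = (t * q * t⁻¹) * (t * (q⁻¹ * k) * t⁻¹) := by group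
    have e2 := hV.1 _ ((mem_normalizer_iff.mp htV q).mp hqV) _ hfV
    have e4 := hV.1 _ (inv_mem hkV) _ (inv_mem hqV)
    have e5 : k⁻¹ * (t * k * t⁻¹) = q⁻¹ * (t * q * t⁻¹) := by
      rw [e1, hft]
      calc k⁻¹ * ((t * q * t⁻¹) * (q⁻¹ * k)) = k⁻¹ * ((q⁻¹ * k) * (t * q * t⁻¹)) := by rw [e2]
        _ = (k⁻¹ * q⁻¹) * k * (t * q * t⁻¹) := by group
        _ = (q⁻¹ * k⁻¹) * k * (t * q * t⁻¹) := by rw [e4]
        _ = _ := by group
    rw [e5]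
    exact mul_mem (inv_mem hq) (hM₂t q hq)
  set b' := z * t * z⁻¹ with hb'
  have hkb : ∀ k ∈ M, k⁻¹ * (b' * k * b'⁻¹) ∈ M₂ := by
    intro k hk
    have hk₁ : z⁻¹ * k * z ∈ M := by
      have := (mem_normalizer_iff.mp (inv_mem hzMN) k).mp hk
      simpa using this
    have h1 := hM₂z _ (hkt _ hk₁)
    have e : z * ((z⁻¹ * k * z)⁻¹ * (t * (z⁻¹ * k * z) * t⁻¹)) * z⁻¹ = k⁻¹ * (b' * k * b'⁻¹) := by
      rw [hb']; group
    rwa [e] at h1
  have hprod : t * b' = z⁻¹ * z⁻¹ := by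
    rw [hb']
    calc t * (z * t * z⁻¹) = t * z * t * z⁻¹ := by group
      _ = t * z * t⁻¹ * z⁻¹ := by rw [ht1]
      _ = z⁻¹ * z⁻¹ := by rw [htz]
  have h2 : ∀ k ∈ M, k⁻¹ * ((z⁻¹ * z⁻¹) * k * (z⁻¹ * z⁻¹)⁻¹) ∈ M₂ := by
    intro k hk
    have := coset_mul hkt hkb hM₂t k hk
    rwa [hprod] at this
  have hwN : ∀ y ∈ M₂, (z⁻¹ * z⁻¹) * y * (z⁻¹ * z⁻¹)⁻¹ ∈ M₂ := fun y hy =>
    (mem_normalizer_iff.mp (mul_mem (inv_mem hzM₂N) (inv_mem hzM₂N)) y).mp hy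
  obtain ⟨j₀, hj₀⟩ := ho
  have h3 : (z⁻¹ * z⁻¹) ^ j₀ = z := by
    have h4 : z⁻¹ * z⁻¹ = (z * z)⁻¹ := by group
    rw [h4, inv_pow, ← pow_two, ← pow_mul]
    have h5 : z ^ (2 * j₀) * z = 1 := by
      rw [← pow_succ, ← hj₀, hzo]
    rw [inv_eq_iff_mul_eq_one]
    exact h5
  have hkz : ∀ k ∈ M, k⁻¹ * (z * k * z⁻¹) ∈ M₂ := by
    have := coset_pow h2 hwN j₀
    rwa [h3] at this
  have hkzi := fun i => coset_pow hkz hM₂z i
  have hPn : ∀ k ∈ M, ∀ n : ℕ, (k ^ n)⁻¹ * nrm z k n ∈ M₂ := by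
    intro k hk n
    induction n with
    | zero => simp [one_mem]
    | succ n ih =>
      have hkV := hMV hk
      have hX : (k ^ n)⁻¹ * nrm z k n ∈ V := hMV (hM₂M ih)
      have h4 := hV.1 _ (inv_mem hkV) _ hX
      have e : (k ^ (n + 1))⁻¹ * nrm z k (n + 1)
          = ((k ^ n)⁻¹ * nrm z k n) * (k⁻¹ * (z ^ n * k * (z ^ n)⁻¹)) := by
        rw [nrm_succ, pow_succ, mul_inv_rev]
        calc k⁻¹ * (k ^ n)⁻¹ * (nrm z k n * (z ^ n * k * (z ^ n)⁻¹))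
            = (k⁻¹ * ((k ^ n)⁻¹ * nrm z k n)) * (z ^ n * k * (z ^ n)⁻¹) := by group
          _ = (((k ^ n)⁻¹ * nrm z k n) * k⁻¹) * (z ^ n * k * (z ^ n)⁻¹) := by rw [h4]
          _ = _ := by group
      rw [e]
      exact mul_mem ih (hkzi n k hk)
  have hMM₂ : M ≤ M₂ := by
    intro k hk
    have h4 := hPn k hk o
    rw [odd_pow_of_sq (PP.sq hV (hMV hk)) ⟨j₀, hj₀⟩, hk.2, mul_one] at h4
    simpa using inv_mem h4
  have hVUt : V ≤ Ut := by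
    intro v hv
    have h4 : v * nrm z v o ∈ Ut := (hMM₂ (hdec v hv)).1
    have h5 := hC₀Ut (hN v hv)
    have e : v = (v * nrm z v o) * (nrm z v o)⁻¹ := by group
    rw [e]
    exact mul_mem h4 (inv_mem h5)
  have hδ : ∀ v ∈ V, ∀ r ∈ R₀, v⁻¹ * (r * v * r⁻¹) ∈ C₀ := fun v hv r hr => ((hmemUt v).mp (hVUt hv)).2 r hr
  have hC₀el : PP 2 C₀ := ⟨fun a ha c hc => hV.1 a (hC₀V ha) c (hC₀V hc), fun a ha => hV.2 a (hC₀V ha)⟩
  have hdouble : ∀ a ∈ R₀, ∀ c ∈ R₀, ∀ v ∈ V,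
      (a * c) * v * (a * c)⁻¹ = v * ((v⁻¹ * (a * v * a⁻¹)) * (v⁻¹ * (c * v * c⁻¹))) := by
    intro a ha c hc v hv
    have h4 := hR₀x a ha _ (hδ v hv c hc)
    calc (a * c) * v * (a * c)⁻¹
        = (a * v * a⁻¹) * (a * (v⁻¹ * (c * v * c⁻¹)) * a⁻¹) := by group
      _ = (a * v * a⁻¹) * (v⁻¹ * (c * v * c⁻¹)) := by rw [h4]
      _ = _ := by group
  have hswap : ∀ a ∈ R₀, ∀ c ∈ R₀, ∀ v ∈ V, (a * c) * v * (a * c)⁻¹ = (c * a) * v * (c * a)⁻¹ := by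
    intro a ha c hc v hv
    rw [hdouble a ha c hc v hv, hdouble c hc a ha v hv, hC₀el.1 _ (hδ v hv a ha) _ (hδ v hv c hc)]
  have hEl : ElemOn R₀ V := by
    constructor
    · intro a ha c hc
      refine mem_centralizer_iff.mpr fun v hv => ?_
      have hv' : (c * a)⁻¹ * v * (c * a) ∈ V := by
        have := (mem_normalizer_iff.mp (inv_mem (hRV (hR₀R (mul_mem hc ha)))) v).mp hv
        simpa using this
      have h4 := hswap a ha c hc _ hv'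
      have e1 : (c * a) * ((c * a)⁻¹ * v * (c * a)) * (c * a)⁻¹ = v := by group
      rw [e1] at h4
      have e2 : (a * c * a⁻¹ * c⁻¹) * v * (a * c * a⁻¹ * c⁻¹)⁻¹ = v := by
        calc (a * c * a⁻¹ * c⁻¹) * v * (a * c * a⁻¹ * c⁻¹)⁻¹
            = (a * c) * ((c * a)⁻¹ * v * (c * a)) * (a * c)⁻¹ := by group
          _ = v := h4
      calc v * (a * c * a⁻¹ * c⁻¹) = ((a * c * a⁻¹ * c⁻¹) * v * (a * c * a⁻¹ * c⁻¹)⁻¹) * (a * c * a⁻¹ * c⁻¹) := by rw [e2]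
        _ = _ := by group
    · intro a ha
      refine mem_centralizer_iff.mpr fun v hv => ?_
      have h4 := hdouble a ha a ha v hv
      rw [PP.sq hC₀el (hδ v hv a ha), mul_one] at h4
      calc v * (a * a) = ((a * a) * v * (a * a)⁻¹) * (a * a) := by rw [h4]
        _ = _ := by group
  have hthin := hth R₀ hR₀R hEl
  have hC₀le : C₀ ≤ centralizer (R₀ : Set G) := by
    intro x hx
    exact mem_centralizer_iff.mpr fun r hr => (mem_centralizer_iff.mp (hR₀cen hr) x hx).symm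
  have hb1 := relIndex_le_of_le hC₀le V
  have hb2 : C₀.relIndex M = C₀.relIndex V := by
    apply Cfsg.Agent.Lib.Coprime.Factor.relIndex_eq_of_forall_exists hMV
    intro k hk
    refine ⟨_, hdec k hk, ?_⟩
    have e : (k * nrm z k o)⁻¹ * k = (nrm z k o)⁻¹ := by group
    rw [e]; exact inv_mem (hN k hk)
  have hb3 : C₀.relIndex M ≤ Nat.card M := by
    have := Subgroup.index_mul_card (C₀.subgroupOf M)
    have hp : 0 < Nat.card (C₀.subgroupOf M) := Nat.card_pos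
    calc C₀.relIndex M ≤ C₀.relIndex M * Nat.card (C₀.subgroupOf M) := Nat.le_mul_of_pos_right _ hp
      _ = _ := this
  have hMel : PP 2 M := ⟨fun a ha c hc => hV.1 a (hMV ha) c (hMV hc), fun a ha => hV.2 a (hMV ha)⟩
  have hb4 : Nat.card M ≤ 16 := by
    apply card_bound hMel hMz _ hrM4
    intro x hx h5 h6
    have e : t * (z⁻¹ * x * z) * t⁻¹ = z * x * z⁻¹ := by
      have := hztconj x
      rw [h5] at this
      exact this.symm
    rw [e] at h6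
    have hsq : (z * z) * x * (z * z)⁻¹ = x := by
      calc (z * z) * x * (z * z)⁻¹ = z * (z * x * z⁻¹) * z⁻¹ := by group
        _ = z * (z⁻¹ * x * z) * z⁻¹ := by rw [h6]
        _ = x := by group
    exact hinter x hx (fixed_of_sq ⟨j₀, hj₀⟩ hzo hsq)
  have hx4 : (centralizer (V : Set G)).relIndex R₀ ≤ 4 := by
    have : ((centralizer (V : Set G)).relIndex R₀) ^ 2 ≤ 16 := by omega
    nlinarith
  have hVnot : ¬ V ≤ centralizer ({t} : Set G) := by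
    intro h
    have : (centralizer ({t} : Set G)).relIndex V = 1 := Subgroup.relIndex_eq_one.mpr h
    omega
  have hVz : ∀ (i : ℕ), ∀ v ∈ V, z ^ i * v * (z ^ i)⁻¹ ∈ V := fun i v hv => pow_conj_mem hzV i hv
  have hesC : ∀ i, es i ∉ centralizer (V : Set G) := by
    intro i hi
    apply hVnot
    intro v hv
    rw [mem_centralizer_singleton_iff]
    have h4 := mem_centralizer_iff.mp hi _ (hVz i v hv)
    have h5 : e * v * e⁻¹ = v := by
      have e1 : z ^ i * (e * v * e⁻¹) * (z ^ i)⁻¹ = z ^ i * v * (z ^ i)⁻¹ := by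
        simp only [hes] at h4
        have e2 : z ^ i * (e * v * e⁻¹) * (z ^ i)⁻¹
            = (z ^ i * e * (z ^ i)⁻¹) * (z ^ i * v * (z ^ i)⁻¹) * (z ^ i * e * (z ^ i)⁻¹)⁻¹ := by group
        rw [e2, ← h4]; group
      simpa using e1
    have h6 := (hfix v hv).mpr h5
    calc v * t = (t * v * t⁻¹) * t := by rw [h6]
      _ = t * v := by group
  obtain ⟨i, j, hij, hj3, hmem⟩ := pigeon es hesR₀ hesC hx4
  obtain ⟨d, rfl⟩ : ∃ d, j = i + d := ⟨j - i, by omega⟩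
  have hD : ∀ v ∈ V, t * v * t⁻¹ = v → t * (z ^ d * v * (z ^ d)⁻¹) * t⁻¹ = z ^ d * v * (z ^ d)⁻¹ := by
    intro v hv h5
    have hve := (hfix v hv).mp h5
    have hzd := hVz d v hv
    rw [hfix _ hzd]
    have hvj := hVz (i + d) v hv
    set vj := z ^ (i + d) * v * (z ^ (i + d))⁻¹ with hvjd
    have hej : es (i + d) * vj * (es (i + d))⁻¹ = vj := by
      simp only [hes, hvjd]
      generalize z ^ (i + d) = u
      calc u * e * u⁻¹ * (u * v * u⁻¹) * (u * e * u⁻¹)⁻¹ = u * (e * v * e⁻¹) * u⁻¹ := by group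
        _ = _ := by rw [hve]
    have hc := mem_centralizer_iff.mp hmem vj hvj
    have hei : es i * vj * (es i)⁻¹ = vj := by
      have e1 : es (i + d) = es i * ((es i)⁻¹ * es (i + d)) := by group
      rw [e1] at hej
      generalize (es i)⁻¹ * es (i + d) = c' at hej hc
      have e2 : es i * c' * vj * (es i * c')⁻¹ = es i * (c' * vj) * (c'⁻¹ * (es i)⁻¹) := by group
      rw [e2, ← hc] at hej
      have e3 : es i * (vj * c') * (c'⁻¹ * (es i)⁻¹) = es i * vj * (es i)⁻¹ := by group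
      rw [e3] at hej
      exact hej
    have e1 : vj = z ^ i * (z ^ d * v * (z ^ d)⁻¹) * (z ^ i)⁻¹ := by
      rw [hvjd, pow_add]; group
    rw [e1] at hei
    simp only [hes] at hei
    generalize z ^ d * v * (z ^ d)⁻¹ = w at hei ⊢
    generalize z ^ i = u at hei
    have e2 : u * e * u⁻¹ * (u * w * u⁻¹) * (u * e * u⁻¹)⁻¹ = u * (e * w * e⁻¹) * u⁻¹ := by group
    rw [e2] at hei
    simpa using hei
  have hζ : ∀ v ∈ V, t * v * t⁻¹ = v → z ^ d * v * (z ^ d)⁻¹ = v := by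
    intro v hv h5
    have h6 := hD v hv h5
    have htζ : t * z ^ d * t⁻¹ = (z ^ d)⁻¹ := by rw [← conj_pow, htz, inv_pow]
    have hζo : (z ^ d) ^ o = 1 := by rw [pow_right_comm, hzo, one_pow]
    generalize z ^ d = ζ at h6 htζ hζo ⊢
    have e1 : t * (ζ * v * ζ⁻¹) * t⁻¹ = ζ⁻¹ * v * ζ := by
      calc t * (ζ * v * ζ⁻¹) * t⁻¹ = (t * ζ * t⁻¹) * (t * v * t⁻¹) * (t * ζ * t⁻¹)⁻¹ := by group
        _ = _ := by rw [htζ, h5]; group
    rw [e1] at h6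
    have hsq : (ζ * ζ) * v * (ζ * ζ)⁻¹ = v := by
      calc (ζ * ζ) * v * (ζ * ζ)⁻¹ = ζ * (ζ * v * ζ⁻¹) * ζ⁻¹ := by group
        _ = ζ * (ζ⁻¹ * v * ζ) * ζ⁻¹ := by rw [h6]
        _ = v := by group
    exact fixed_of_sq ⟨j₀, hj₀⟩ hζo hsq
  have hexm : ∃ m ∈ M, t * m * t⁻¹ ≠ m := by
    by_contra hc
    push Not at hc
    have hle : M ≤ centralizer ({t} : Set G) := by
      intro m hm
      rw [mem_centralizer_singleton_iff]
      calc m * t = (t * m * t⁻¹) * t := by rw [hc m hm]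
        _ = t * m := by group
    have : (centralizer ({t} : Set G)).relIndex M = 1 := Subgroup.relIndex_eq_one.mpr hle
    omega
  obtain ⟨m, hm, hmt⟩ := hexm
  set m₀ := m⁻¹ * (t * m * t⁻¹) with hm₀
  have hm₀M : m₀ ∈ M := mul_mem (inv_mem hm) (hMt m hm)
  have hm₀1 : m₀ ≠ 1 := by
    intro h
    rw [hm₀, inv_mul_eq_one] at h
    exact hmt h.symm
  have hm₀t : t * m₀ * t⁻¹ = m₀ := by
    have ha : t * m * t⁻¹ ∈ V := (mem_normalizer_iff.mp htV m).mp (hMV hm)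
    have ha2 := PP.sq hV ha
    have hm2 := PP.sq hV (hMV hm)
    have ha1 : (t * m * t⁻¹)⁻¹ = t * m * t⁻¹ := by rw [inv_eq_iff_mul_eq_one]; exact ha2
    have hm1 : m⁻¹ = m := by rw [inv_eq_iff_mul_eq_one]; exact hm2
    calc t * m₀ * t⁻¹ = (t * m * t⁻¹)⁻¹ * ((t * t) * m * (t * t)⁻¹) := by rw [hm₀]; group
      _ = (t * m * t⁻¹) * m := by rw [ht2, ha1]; group
      _ = m * (t * m * t⁻¹) := hV.1 _ ha _ (hMV hm)
      _ = m₀ := by rw [hm₀, hm1]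
  have hm₀V : m₀ ∈ V := hMV hm₀M
  have hfd := hζ m₀ hm₀V hm₀t
  have hd : d = 1 ∨ d = 2 ∨ d = 3 := by omega
  rcases hd with rfl | rfl | rfl
  · rw [pow_one] at hfd
    exact hm₀1 (hinter _ hm₀M hfd)
  · rw [pow_two] at hfd
    exact hm₀1 (hinter _ hm₀M (fixed_of_sq ⟨j₀, hj₀⟩ hzo hfd))
  · -- the `S₄` pattern
    set m₁ := z * m₀ * z⁻¹ with hm₁
    set m₂ := z * m₁ * z⁻¹ with hm₂
    have hm₁M : m₁ ∈ M := hMz _ hm₀M
    have hm₂M : m₂ ∈ M := hMz _ hm₁M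
    have hm₃ : z * m₂ * z⁻¹ = m₀ := by
      have e : z * m₂ * z⁻¹ = z ^ 3 * m₀ * (z ^ 3)⁻¹ := by
        rw [hm₂, hm₁]; simp only [pow_succ, pow_zero, one_mul]; group
      rw [e, hfd]
    have hPM : m₀ * m₁ * m₂ ∈ M := mul_mem (mul_mem hm₀M hm₁M) hm₂M
    have hPfix : z * (m₀ * m₁ * m₂) * z⁻¹ = m₀ * m₁ * m₂ := by
      have e : z * (m₀ * m₁ * m₂) * z⁻¹ = (z * m₀ * z⁻¹) * (z * m₁ * z⁻¹) * (z * m₂ * z⁻¹) := by group
      rw [e, hm₃, ← hm₁, ← hm₂]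
      have h5 := hMel.1 _ (mul_mem hm₁M hm₂M) _ hm₀M
      rw [h5]; group
    have hP1 := hinter _ hPM hPfix
    have hm₂eq : m₂ = m₀ * m₁ := by
      have h5 : (m₀ * m₁) * (m₀ * m₁) = 1 := PP.sq hMel (mul_mem hm₀M hm₁M)
      calc m₂ = ((m₀ * m₁) * (m₀ * m₁)) * m₂ := by rw [h5, one_mul]
        _ = (m₀ * m₁) * (m₀ * m₁ * m₂) := by group
        _ = m₀ * m₁ := by rw [hP1, mul_one]
    have hb'L : b' ∈ L := mul_mem (mul_mem hzL htL) (inv_mem hzL)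
    have hinvm : z⁻¹ * m₀ * z = m₂ := by
      rw [← hm₃]; group
    refine hP t htL b' hb'L m₀ (hVL hm₀V) m₁ (hVL (hMV hm₁M)) (PP.sq hMel hm₀M) (PP.sq hMel hm₁M)
      (hMel.1 _ hm₀M _ hm₁M) hm₀1 ?_ ?_ hm₀t ?_ ?_ ?_
    · intro h
      rw [hm₁] at h
      apply hm₀1
      have : z⁻¹ * (z * m₀ * z⁻¹) * z = z⁻¹ * 1 * z := by rw [h]
      simpa [mul_assoc] using this
    · intro h
      exact hm₀1 (hinter _ hm₀M h.symm)
    · -- `t m₁ t⁻¹ = m₀ m₁`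
      have e : t * m₁ * t⁻¹ = z⁻¹ * (t * m₀ * t⁻¹) * z := by
        rw [hm₁]
        calc t * (z * m₀ * z⁻¹) * t⁻¹ = (t * z * t⁻¹) * (t * m₀ * t⁻¹) * (t * z * t⁻¹)⁻¹ := by group
          _ = _ := by rw [htz]; group
      rw [e, hm₀t, hinvm, hm₂eq]
    · -- `b' m₁ b'⁻¹ = m₁`
      have e : b' * m₁ * b'⁻¹ = z * (t * m₀ * t⁻¹) * z⁻¹ := by
        rw [hb', hm₁]; group
      rw [e, hm₀t]
    · -- `b' m₀ b'⁻¹ = m₀ m₁`
      have e : b' * m₀ * b'⁻¹ = z * (t * (z⁻¹ * m₀ * z) * t⁻¹) * z⁻¹ := by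
        rw [hb']; group
      have e2 : t * (z⁻¹ * m₀ * z) * t⁻¹ = m₁ := by
        rw [← hztconj, hm₀t]
      rw [e, e2, ← hm₂, hm₂eq]

end Cfsg.Agent.Lib.SFree
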