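import Mathlib
import Cfsg.Agent.Lib.SFree.Core2

/-!
# The core theorem
-/

namespace Cfsg.Agent.Lib.SFree

open Subgroup Cfsg.Agent.Lib.PGroup.ZJ
open Cfsg.Agent.Lib.Basic.PCore
open scoped commutatorElement

variable {G : Type*} [Group G] [Finite G]

/-- **Core theorem**. -/
theorem core {L S A R E : Subgroup G} {y₀ t₁ : G}
    (hP : NoPat L) (hSL : S ≤ L) (hSp : IsPGroup 2 S) (hAR : A ≤ R) (hRS : R ≤ S) (hAel : PP 2 A)
    (hSA : S ≤ normalizer (A : Set G)) (hth : ThinOn S A)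
    (hE : E ∈ AA 2 S) (hER : E ≤ normalizer (R : Set G))
    (ht₁E : t₁ ∈ E) (ht₁R : t₁ ∉ R) (hyper : ∀ b ∈ E, b ∈ R ∨ b * t₁ ∈ R)
    (hy₀L : y₀ ∈ L) (hy₀R : y₀ ∈ normalizer (R : Set G))
    (hinv : ∀ t₀ ∈ E, t₀ ∉ R → t₀ * y₀ * t₀⁻¹ * y₀ ∈ R) :
    ∃ k : ℕ, y₀ ^ (2 ^ k) ∈ normalizer (A : Set G) := by
  classical
  haveI : Fact (Nat.Prime 2) := ⟨Nat.prime_two⟩
  have hATT : TT R A := ⟨hAR, hAel, hRS.trans hSA, hth.th hRS⟩
  obtain ⟨V, hVT, hVmax⟩ := exists_largest R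
  have hNV := largest_normalizer hVT hVmax
  have hAV : A ≤ V := hVmax A hATT
  have hRp : IsPGroup 2 R := hSp.to_le hRS
  have hVS : V ≤ S := hVT.le.trans hRS
  have hVL : V ≤ L := hVS.trans hSL
  have hEel := hE.2.1
  have hES : E ≤ S := hE.1
  have htfacts : ∀ t ∈ E, t * t = 1 := fun t ht => PP.sq hEel ht
  have hbN : y₀ ∈ normalizer (V : Set G) := hNV hy₀R
  have hEV : E ≤ normalizer (V : Set G) := hER.trans hNV
  have hmain : ∀ t ∈ E, t ∉ R → ∀ (a o : ℕ),
      (∀ v ∈ V, (t * (y₀ * t * y₀⁻¹)) ^ (2 ^ a) * v * ((t * (y₀ * t * y₀⁻¹)) ^ (2 ^ a))⁻¹ = v) →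
      ∃ k : ℕ, y₀ ^ (2 ^ k) ∈ normalizer (A : Set G) := by
    intro t ht htR a _ hz
    refine ⟨a + 1, ?_⟩
    have ht2 := htfacts t ht
    have ht1 : t⁻¹ = t := by rw [inv_eq_iff_mul_eq_one]; exact ht2
    have hc : (t * (y₀ * t * y₀⁻¹)) * y₀ * y₀ ∈ R := by
      have e : (t * (y₀ * t * y₀⁻¹)) * y₀ * y₀ = t * y₀ * t⁻¹ * y₀ := by
        rw [ht1]; group
      rw [e]; exact hinv t ht htR
    have hpow := pow_mul_mem hy₀R hc (2 ^ a)
    have hzA : (t * (y₀ * t * y₀⁻¹)) ^ (2 ^ a) ∈ normalizer (A : Set G) := by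
      apply Cfsg.Agent.Lib.Coprime.Three.mem_normalizer_of_conj_mem
      intro x hx
      rw [hz x (hAV hx)]; exact hx
    have hpA := hSA (hRS hpow)
    have := mul_mem (inv_mem hzA) hpA
    rw [inv_mul_cancel_left] at this
    rw [pow_succ']
    exact this
  by_cases hcase : ∃ t ∈ E, t ∉ R ∧ t ∈ centralizer (V : Set G)
  · obtain ⟨t, ht, htR, htC⟩ := hcase
    obtain ⟨a, o, _, _⟩ := exists_odd_part (t * (y₀ * t * y₀⁻¹))
    refine hmain t ht htR a o fun v hv => ?_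
    have hfixt : ∀ w ∈ V, t * w * t⁻¹ = w := by
      intro w hw
      have := mem_centralizer_iff.mp htC w hw
      rw [← this]; group
    have hv' : y₀⁻¹ * v * y₀ ∈ V := by
      have := (mem_normalizer_iff.mp (inv_mem hbN) v).mp hv
      simpa using this
    have hb : (y₀ * t * y₀⁻¹) * v * (y₀ * t * y₀⁻¹)⁻¹ = v := by
      calc (y₀ * t * y₀⁻¹) * v * (y₀ * t * y₀⁻¹)⁻¹ = y₀ * (t * (y₀⁻¹ * v * y₀) * t⁻¹) * y₀⁻¹ := by group
        _ = v := by rw [hfixt _ hv']; group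
    exact dih_cent (hfixt v hv) hb _
  push Not at hcase
  -- now every element of `E` outside `R` acts nontrivially
  set E₁ := E ⊓ R with hE₁
  have hE₁E : E₁ ≤ E := inf_le_left
  have hE₁R : E₁ ≤ R := inf_le_right
  have hE₁el : PP 2 E₁ := ⟨fun a ha c hc => hEel.1 a ha.1 c hc.1, fun a ha => hEel.2 a ha.1⟩
  have hidx : E₁.relIndex E = 2 := by
    apply relIndex_two_of_hyperplane hE₁E ht₁E (fun h => ht₁R h.2)
    intro b hb
    rcases hyper b hb with h | h
    · exact Or.inl ⟨hb, h⟩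
    · exact Or.inr ⟨mul_mem hb ht₁E, h⟩
  have hle1 : centralizer (V : Set G) ⊓ E ≤ E₁ := by
    rintro x ⟨hx1, hx2⟩
    refine ⟨hx2, ?_⟩
    by_contra hxR
    exact hcase x hx2 hxR hx1
  have hCE : (centralizer (V : Set G)).relIndex E = (centralizer (V : Set G)).relIndex E₁ * 2 := by
    rw [relIndex_hyperplane hle1 hE₁E, hidx]
  set a₀ := (centralizer (V : Set G)).relIndex E₁ with ha₀
  set n := E.relIndex V with hn
  have hoff : n ≤ a₀ * 2 := by
    have := offender hE hVS hVT.el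
    rwa [hCE] at this
  have hKle : ∀ K : Subgroup G, E ⊓ V ≤ K → K.relIndex V ≤ n := by
    intro K hK
    have := relIndex_le_of_le hK V
    rwa [Subgroup.inf_relIndex_right] at this
  have hz₀ : a₀ ^ 2 ≤ (centralizer (E₁ : Set G)).relIndex V :=
    hVT.th E₁ hE₁R (elemOn_of_PP hE₁el)
  have hz₀n : (centralizer (E₁ : Set G)).relIndex V ≤ n := by
    apply hKle
    rintro x ⟨hx1, _⟩
    exact mem_centralizer_iff.mpr fun h hh => hEel.1 h hh.1 x hx1
  have ha₀0 : a₀ ≠ 0 := Subgroup.index_ne_zero_of_finite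
  have ha₀2 : a₀ ≤ 2 := by
    have : a₀ ^ 2 ≤ a₀ * 2 := by omega
    nlinarith [Nat.pos_of_ne_zero ha₀0]
  set t := t₁ with ht
  have ht2 := htfacts t ht₁E
  have hrn : (centralizer ({t} : Set G)).relIndex V ≤ n := by
    apply hKle
    rintro x ⟨hx1, _⟩
    rw [mem_centralizer_singleton_iff]
    exact hEel.1 x hx1 t ht₁E
  have htS : t ∈ S := hES ht₁E
  have htL : t ∈ L := hSL htS
  have hy₀inv : y₀⁻¹ ∈ L := inv_mem hy₀L
  set b := y₀ * t * y₀⁻¹ with hb
  have hb2 : b * b = 1 := by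
    rw [hb]
    calc y₀ * t * y₀⁻¹ * (y₀ * t * y₀⁻¹) = y₀ * (t * t) * y₀⁻¹ := by group
      _ = 1 := by rw [ht2]; group
  have hbL : b ∈ L := mul_mem (mul_mem hy₀L htL) hy₀inv
  have htR' : t ∈ normalizer (R : Set G) := hER ht₁E
  have hbR : b ∈ normalizer (R : Set G) := mul_mem (mul_mem hy₀R htR') (inv_mem hy₀R)
  obtain ⟨a, o, ho, hco⟩ := exists_odd_part (t * b)
  refine hmain t ht₁E ht₁R a o ?_
  have htV : t ∈ normalizer (V : Set G) := hEV ht₁E
  have hzR : (t * b) ^ (2 ^ a) ∈ normalizer (R : Set G) := pow_mem (mul_mem htR' hbR) _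
  have hzL : (t * b) ^ (2 ^ a) ∈ L := pow_mem (mul_mem htL hbL) _
  have hzV : (t * b) ^ (2 ^ a) ∈ normalizer (V : Set G) := hNV hzR
  have htz := (dih_inv ht2 hb2 (2 ^ a)).1
  generalize hzdef : (t * b) ^ (2 ^ a) = z at hzR hzL hzV htz hco ⊢
  by_cases hlt : (centralizer ({t} : Set G)).relIndex V < 4
  · have hrk := rank_form hVT.el htV hlt
    refine trans_core hP hVL hVT.el htL hzL htV hzV
      (fun w _ => ?_) (fun w _ => ?_) ho (fun w _ => ?_) hrk
    · calc t * (t * w * t⁻¹) * t⁻¹ = (t * t) * w * (t * t)⁻¹ := by group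
        _ = w := by rw [ht2]; group
    · calc t * (z * w * z⁻¹) * t⁻¹ = (t * z * t⁻¹) * (t * w * t⁻¹) * (t * z * t⁻¹)⁻¹ := by group
        _ = z⁻¹ * (t * w * t⁻¹) * z := by rw [htz]; group
    · rw [hco]; group
  push Not at hlt
  -- rank-four situation
  have ha2 : a₀ = 2 := by omega
  have hn4 : n = 4 := by omega
  have hexe : ∃ e ∈ E₁, e ∉ centralizer (V : Set G) := by
    by_contra hc
    push Not at hc
    have : a₀ = 1 := Subgroup.relIndex_eq_one.mpr (fun x hx => hc x hx)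
    omega
  obtain ⟨e, heE₁, heC⟩ := hexe
  have heE : e ∈ E := heE₁.1
  have hzE : zpowers e ≤ E := by rw [zpowers_le]; exact heE
  have hzRR : zpowers e ≤ R := by rw [zpowers_le]; exact heE₁.2
  have hzel : PP 2 (zpowers e) := ⟨fun a ha c hc => hEel.1 a (hzE ha) c (hzE hc), fun a ha => hEel.2 a (hzE ha)⟩
  have hxth := hVT.th (zpowers e) hzRR (elemOn_of_PP hzel)
  have hxne : (centralizer (V : Set G)).relIndex (zpowers e) ≠ 1 := by
    intro h
    exact heC (Subgroup.relIndex_eq_one.mp h (mem_zpowers e))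
  have hx0 : (centralizer (V : Set G)).relIndex (zpowers e) ≠ 0 := Subgroup.index_ne_zero_of_finite
  have hx2 : 2 ≤ (centralizer (V : Set G)).relIndex (zpowers e) := by omega
  have hCzn : (centralizer (zpowers e : Set G)).relIndex V ≤ n := by
    apply hKle
    rintro x ⟨hx1, _⟩
    exact mem_centralizer_iff.mpr fun h hh => hEel.1 h (hzE hh) x hx1
  have hCz4 : (centralizer (zpowers e : Set G)).relIndex V = n := by
    have : 4 ≤ (centralizer (zpowers e : Set G)).relIndex V := by nlinarith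
    omega
  have heq1 := inf_eq_of_relIndex_eq (H := E ⊓ V) (K := centralizer (zpowers e : Set G)) (W := V)
    (by
      rintro x ⟨hx1, _⟩
      exact mem_centralizer_iff.mpr fun h hh => hEel.1 h (hzE hh) x hx1)
    (by rw [Subgroup.inf_relIndex_right]; exact hCz4.symm)
  have heq2 := inf_eq_of_relIndex_eq (H := E ⊓ V) (K := centralizer ({t} : Set G)) (W := V)
    (by
      rintro x ⟨hx1, _⟩
      rw [mem_centralizer_singleton_iff]
      exact hEel.1 x hx1 t ht₁E)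
    (by
      rw [Subgroup.inf_relIndex_right]
      omega)
  have hcz : ∀ v ∈ V, e * v * e⁻¹ = v → v ∈ E ⊓ V := by
    intro v hv h
    have hv2 : v ∈ E ⊓ V ⊓ V := by
      rw [heq1]
      refine ⟨?_, hv⟩
      refine mem_centralizer_iff.mpr fun g hg => ?_
      have hle : zpowers e ≤ centralizer ({v} : Set G) := by
        rw [zpowers_le, mem_centralizer_singleton_iff]
        calc e * v = (e * v * e⁻¹) * e := by group
          _ = v * e := by rw [h]
      exact mem_centralizer_singleton_iff.mp (hle hg)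
    exact hv2.1
  have hct : ∀ v ∈ V, t * v * t⁻¹ = v → v ∈ E ⊓ V := by
    intro v hv h
    have hv2 : v ∈ E ⊓ V ⊓ V := by
      rw [heq2]
      refine ⟨mem_centralizer_singleton_iff.mpr ?_, hv⟩
      calc v * t = (t * v * t⁻¹) * t := by rw [h]
        _ = t * v := by group
    exact hv2.1
  have hfix : ∀ v ∈ V, t * v * t⁻¹ = v ↔ e * v * e⁻¹ = v := by
    intro v hv
    constructor
    · intro h
      have := hct v hv h
      rw [hEel.1 e heE v this.1]; group
    · intro h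
      have := hcz v hv h
      rw [hEel.1 t ht₁E v this.1]; group
  have hte : t * e * t⁻¹ = e := by
    rw [hEel.1 t ht₁E e heE]; group
  exact rank4 hP hVL hVT.el hVT.le hRp hVT.nm hVT.th htL hzL htV hzV hzR ht2 htz ho hco heE₁.2 hte hfix
    (by omega)

end Cfsg.Agent.Lib.SFree
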