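import Mathlib
import Cfsg.Agent.Lib.SFree.Core3

/-!
# The odd layer normalizes a thin subgroup
-/

namespace Cfsg.Agent.Lib.SFree

open Subgroup Cfsg.Agent.Lib.PGroup.ZJ
open Cfsg.Agent.Lib.Basic.PCore
open scoped commutatorElement

section
variable {X : Type*} [Group X] [Finite X]

/-- The stabilizer of all the cosets. -/
def Hset (O O₁ : Subgroup X) (hO : O.Normal) : Subgroup X where
  carrier := {g | g ∈ normalizer (O₁ : Set X) ∧ ∀ x ∈ O, x⁻¹ * (g * x * g⁻¹) ∈ O₁}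
  mul_mem' := by
    rintro g₁ g₂ ⟨h1, h2⟩ ⟨h3, h4⟩
    refine ⟨mul_mem h1 h3, fun x hx => ?_⟩
    have h5 := (mem_normalizer_iff.mp h1 _).mp (h4 x hx)
    have e : x⁻¹ * ((g₁ * g₂) * x * (g₁ * g₂)⁻¹)
        = (x⁻¹ * (g₁ * x * g₁⁻¹)) * (g₁ * (x⁻¹ * (g₂ * x * g₂⁻¹)) * g₁⁻¹) := by group
    rw [e]
    exact mul_mem (h2 x hx) h5
  one_mem' := ⟨one_mem _, fun x _ => by simp [one_mem]⟩
  inv_mem' := by
    rintro g ⟨h1, h2⟩
    refine ⟨inv_mem h1, fun x hx => ?_⟩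
    have hz : g⁻¹ * x * g ∈ O := by
      have := hO.conj_mem x hx g⁻¹
      simpa using this
    have h3 := inv_mem (h2 _ hz)
    have e : (((g⁻¹ * x * g))⁻¹ * (g * (g⁻¹ * x * g) * g⁻¹))⁻¹ = x⁻¹ * (g⁻¹ * x * g⁻¹⁻¹) := by group
    rw [e] at h3
    exact h3

/-- Fixed point in a coset of an odd-order subgroup. -/
theorem fixed_in_coset {P O₁ : Subgroup X} (hP : IsPGroup 2 P) (hO₁ : ¬ 2 ∣ Nat.card O₁)
    (hN : P ≤ normalizer (O₁ : Set X)) {x : X} (hx : ∀ g ∈ P, x⁻¹ * (g * x * g⁻¹) ∈ O₁) :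
    ∃ c, x⁻¹ * c ∈ O₁ ∧ ∀ g ∈ P, g * c = c * g := by
  classical
  haveI : Fact (Nat.Prime 2) := ⟨Nat.prime_two⟩
  let C := {c : X // x⁻¹ * c ∈ O₁}
  have hmem : ∀ (g : X), g ∈ P → ∀ c : C, x⁻¹ * (g * c.1 * g⁻¹) ∈ O₁ := by
    intro g hg c
    have h1 := (mem_normalizer_iff.mp (hN hg) _).mp c.2
    have e : x⁻¹ * (g * c.1 * g⁻¹) = (x⁻¹ * (g * x * g⁻¹)) * (g * (x⁻¹ * c.1) * g⁻¹) := by group
    rw [e]
    exact mul_mem (hx g hg) h1
  letI : MulAction P C :=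
    { smul := fun g c => ⟨g.1 * c.1 * g.1⁻¹, hmem g.1 g.2 c⟩
      one_smul := fun c => by
        apply Subtype.ext
        show ((1 : P) : X) * c.1 * ((1 : P) : X)⁻¹ = c.1
        simp
      mul_smul := fun a b c => by
        apply Subtype.ext
        show ((a * b : P) : X) * c.1 * ((a * b : P) : X)⁻¹ = (a : X) * ((b : X) * c.1 * (b : X)⁻¹) * (a : X)⁻¹
        simp only [Subgroup.coe_mul]
        group }
  have hcard : Nat.card C = Nat.card O₁ := by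
    apply Nat.card_congr
    exact { toFun := fun c => ⟨x⁻¹ * c.1, c.2⟩
            invFun := fun o => ⟨x * o.1, by simpa using o.2⟩
            left_inv := fun c => by apply Subtype.ext; simp
            right_inv := fun o => by apply Subtype.ext; simp }
  obtain ⟨c, hc⟩ := hP.nonempty_fixed_point_of_prime_not_dvd_card C (by rwa [hcard])
  refine ⟨c.1, c.2, fun g hg => ?_⟩
  have h1 := hc ⟨g, hg⟩
  have h2 : g * c.1 * g⁻¹ = c.1 := congrArg Subtype.val h1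
  calc g * c.1 = (g * c.1 * g⁻¹) * g := by group
    _ = c.1 * g := by rw [h2]

end

variable {G : Type*} [Group G] [Finite G]

/-- The projection to `L / O₂(L)`. -/
abbrev piL (L : Subgroup G) : ↥L →* ↥L ⧸ (Q2 L).subgroupOf L := QuotientGroup.mk' ((Q2 L).subgroupOf L)

theorem piL_surj (L : Subgroup G) : Function.Surjective (piL L) := QuotientGroup.mk'_surjective _

theorem piL_ker (L : Subgroup G) (g : L) : piL L g = 1 ↔ (g : G) ∈ Q2 L := by
  rw [piL, QuotientGroup.mk'_apply, QuotientGroup.eq_one_iff]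
  rfl

/-- The odd layer. -/
def L1 (L : Subgroup G) : Subgroup G :=
  ((Cfsg.pPrimeCore 2 (↥L ⧸ (Q2 L).subgroupOf L)).comap (piL L)).map L.subtype

/-- **Layer theorem** -/
theorem layer {L A : Subgroup G} (S : Sylow 2 G) (hSL : (S : Subgroup G) ≤ L) (hP : NoPat L) (hc : Char2 L)
    (hsol : Group.IsSolvable L) (hAS : A ≤ S) (hAel : PP 2 A)
    (hSA : (S : Subgroup G) ≤ normalizer (A : Set G)) (hth : ThinOn S A)
    (hJ : ∀ g ∈ L, g ∈ normalizer (JJ 2 (S : Subgroup G) : Set G) → g ∈ normalizer (A : Set G)) :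
    L1 L ≤ normalizer (A : Set G) := by
  classical
  haveI : Fact (Nat.Prime 2) := ⟨Nat.prime_two⟩
  have hSp : IsPGroup 2 (S : Subgroup G) := S.isPGroup'
  have hQS : Q2 L ≤ S := Q2_le_sylow S hSL
  have hAQ : A ≤ Q2 L := step1 hP hSL hSp hQS hc hAS hAel hSA hth hsol
  set Q := Q2 L with hQ
  set π := piL L with hπ
  have hπs : Function.Surjective π := piL_surj L
  have hker : ∀ g : L, π g = 1 ↔ (g : G) ∈ Q := piL_ker L
  set X := ↥L ⧸ Q.subgroupOf L with hX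
  set O := Cfsg.pPrimeCore 2 X with hO
  haveI hOn : O.Normal := pPrimeCore_normal 2 X
  have hOcop : (Nat.card O).Coprime 2 := Cfsg.Agent.Lib.Components.Transport.coprime_card_pPrimeCore 2
  have hOodd : ¬ 2 ∣ Nat.card O := by
    intro h
    have := Nat.dvd_gcd h (dvd_refl 2)
    rw [hOcop.gcd_eq_one] at this
    omega
  have hQN : Q ≤ normalizer (A : Set G) := hQS.trans hSA
  set NA := (normalizer (A : Set G)).subgroupOf L with hNA
  have hmemNA : ∀ g : L, π g ∈ NA.map π ↔ (g : G) ∈ normalizer (A : Set G) := by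
    intro g
    constructor
    · rintro ⟨g', hg', he⟩
      have h1 : π (g'⁻¹ * g) = 1 := by rw [map_mul, map_inv, he]; group
      have h2 := (hker _).mp h1
      have h3 : (g : G) = g' * ((g'⁻¹ * g : L) : G) := by simp
      rw [h3]
      exact mul_mem hg' (hQN h2)
    · intro h
      exact ⟨g, h, rfl⟩
  set O₁ := O ⊓ NA.map π with hO₁
  have hO₁O : O₁ ≤ O := inf_le_left
  have hO₁odd : ¬ 2 ∣ Nat.card O₁ := fun h =>
    hOodd (h.trans (Subgroup.card_dvd_of_le hO₁O))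
  have hSO₁ : ∀ s (hs : s ∈ (S : Subgroup G)), π ⟨s, hSL hs⟩ ∈ normalizer (O₁ : Set X) := by
    intro s hs
    apply Cfsg.Agent.Lib.Coprime.Three.mem_normalizer_of_conj_mem
    rintro v ⟨hv1, hv2⟩
    refine ⟨hOn.conj_mem v hv1 _, ?_⟩
    obtain ⟨g, rfl⟩ := hπs v
    have hg := (hmemNA g).mp hv2
    have e : π ⟨s, hSL hs⟩ * π g * (π ⟨s, hSL hs⟩)⁻¹ = π (⟨s, hSL hs⟩ * g * ⟨s, hSL hs⟩⁻¹) := by
      simp only [map_mul, map_inv]
    rw [e]
    exact (hmemNA _).mpr (mul_mem (mul_mem (hSA hs) hg) (inv_mem (hSA hs)))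
  -- the data for each `E`
  have hdata : ∀ E ∈ AA 2 (S : Subgroup G), ∀ x ∈ O, ∀ t ∈ (E.subgroupOf L).map π,
      x⁻¹ * (t * x * t⁻¹) ∈ O₁ := by
    intro E hE x hx t ht
    have hES : E ≤ S := hE.1
    have hEel := hE.2.1
    have hEb : PP 2 ((E.subgroupOf L).map π) := by
      constructor
      · rintro _ ⟨a, ha, rfl⟩ _ ⟨b, hb, rfl⟩
        rw [← map_mul, ← map_mul]
        congr 1
        exact Subtype.ext (hEel.1 a ha b hb)
      · rintro _ ⟨a, ha, rfl⟩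
        rw [← map_pow]
        have : a ^ 2 = 1 := Subtype.ext (hEel.2 a ha)
        rw [this, map_one]
    have hEO : (E.subgroupOf L).map π ≤ normalizer (O : Set X) := by
      intro g _
      rw [mem_normalizer_iff]
      intro n
      constructor
      · exact fun h => hOn.conj_mem n h g
      · intro h
        have := hOn.conj_mem _ h g⁻¹
        simpa [mul_assoc] using this
    have hgen := gen_core hEb hOodd hEO x hx t ht
    refine (?_ : dataK ((E.subgroupOf L).map π) O ≤ O₁) hgen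
    rw [dataK, closure_le]
    rintro η ⟨hηO, B, hBT, tb, htb, htbB, hy, h1, h2⟩
    refine ⟨hηO, ?_⟩
    -- the subgroup `R`
    obtain ⟨⟨t₁, ht₁L⟩, ht₁E, rfl⟩ := htb
    have ht₁E' : t₁ ∈ E := ht₁E
    set E₁ := ((B.comap π).map L.subtype) ⊓ E with hE₁
    have hE₁E : E₁ ≤ E := inf_le_right
    have hE₁mem : ∀ e (he : e ∈ L), e ∈ E₁ → π ⟨e, he⟩ ∈ B := by
      rintro e he ⟨⟨g, hg, hge⟩, _⟩
      have : g = ⟨e, he⟩ := Subtype.ext hge
      rw [← this]; exact hg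
    have hE₁in : ∀ e (he : e ∈ L), e ∈ E → π ⟨e, he⟩ ∈ B → e ∈ E₁ := by
      intro e he heE hb
      exact ⟨⟨⟨e, he⟩, hb, rfl⟩, heE⟩
    have hLQ : L ≤ normalizer (Q : Set G) := Q2_normalizer L
    have hE₁L : E₁ ≤ L := (hE₁E.trans hES).trans hSL
    set R := Q ⊔ E₁ with hR
    have hmemR : ∀ r, r ∈ R ↔ ∃ n ∈ Q, ∃ a ∈ E₁, n * a = r :=
      Cfsg.Agent.Lib.Coprime.Coset.mem_sup_iff_of_le_normalizer (hE₁L.trans hLQ)
    have hQR : Q ≤ R := le_sup_left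
    have hE₁R : E₁ ≤ R := le_sup_right
    have hRS : R ≤ S := sup_le hQS (hE₁E.trans hES)
    have hRL : R ≤ L := hRS.trans hSL
    have hπR : ∀ r (hr : r ∈ L), r ∈ R → π ⟨r, hr⟩ ∈ B := by
      intro r hr hrR
      obtain ⟨n, hn, a, ha, rfl⟩ := (hmemR r).mp hrR
      have haL : a ∈ L := hE₁L ha
      have hnL : n ∈ L := Q2_le L hn
      have e : (⟨n * a, hr⟩ : L) = ⟨n, hnL⟩ * ⟨a, haL⟩ := rfl
      rw [e, map_mul, (hker ⟨n, hnL⟩).mpr hn, one_mul]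
      exact hE₁mem a haL ha
    have ht₁R : t₁ ∉ R := fun h => htbB (hπR t₁ ht₁L h)
    have hyper : ∀ b ∈ E, b ∈ R ∨ b * t₁ ∈ R := by
      intro b hb
      have hbL : b ∈ L := hSL (hES hb)
      rcases hy (π ⟨b, hbL⟩) ⟨⟨b, hbL⟩, hb, rfl⟩ with h | h
      · exact Or.inl (hE₁R (hE₁in b hbL hb h))
      · right
        apply hE₁R
        apply hE₁in (b * t₁) (mul_mem hbL ht₁L) (mul_mem hb ht₁E')
        have e : (⟨b * t₁, mul_mem hbL ht₁L⟩ : L) = ⟨b, hbL⟩ * ⟨t₁, ht₁L⟩ := rfl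
        rw [e, map_mul]; exact h
    have hER : E ≤ normalizer (R : Set G) := by
      intro e he
      apply Cfsg.Agent.Lib.Coprime.Three.mem_normalizer_of_conj_mem
      intro r hr
      obtain ⟨n, hn, a, ha, rfl⟩ := (hmemR r).mp hr
      have h3 : e * (n * a) * e⁻¹ = (e * n * e⁻¹) * a := by
        have : e * a = a * e := hEel.1 e he a (hE₁E ha)
        calc e * (n * a) * e⁻¹ = e * n * e⁻¹ * (e * a) * e⁻¹ := by group
          _ = e * n * e⁻¹ * (a * e) * e⁻¹ := by rw [this]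
          _ = _ := by group
      rw [h3]
      exact mul_mem (hQR (Q2_conj L (hSL (hES he)) hn)) (hE₁R ha)
    obtain ⟨⟨y, hyL⟩, rfl⟩ := hπs η
    have hy₀R : y ∈ normalizer (R : Set G) := by
      apply Cfsg.Agent.Lib.Coprime.Three.mem_normalizer_of_conj_mem
      intro r hr
      obtain ⟨n, hn, a, ha, rfl⟩ := (hmemR r).mp hr
      have haL : a ∈ L := hE₁L ha
      have hc1 := h1 _ (hE₁mem a haL ha)
      have h4 : π (⟨y, hyL⟩ * ⟨a, haL⟩ * ⟨y, hyL⟩⁻¹ * ⟨a, haL⟩⁻¹) = 1 := by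
        simp only [map_mul, map_inv]
        rw [← hc1]; group
      have h5 : y * a * y⁻¹ * a⁻¹ ∈ Q := by simpa using (hker _).mp h4
      have e : y * (n * a) * y⁻¹ = (y * n * y⁻¹) * (y * a * y⁻¹ * a⁻¹) * a := by group
      rw [e]
      exact mul_mem (hQR (mul_mem (Q2_conj L hyL hn) h5)) (hE₁R ha)
    have hinv : ∀ t₀ ∈ E, t₀ ∉ R → t₀ * y * t₀⁻¹ * y ∈ R := by
      intro t₀ ht₀ ht₀R
      have ht₀L : t₀ ∈ L := hSL (hES ht₀)
      have hnotB : π ⟨t₀, ht₀L⟩ ∉ B := fun h => ht₀R (hE₁R (hE₁in t₀ ht₀L ht₀ h))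
      rcases hy (π ⟨t₀, ht₀L⟩) ⟨⟨t₀, ht₀L⟩, ht₀, rfl⟩ with h | h
      · exact absurd h hnotB
      · have ht₁2 : π ⟨t₁, ht₁L⟩ * π ⟨t₁, ht₁L⟩ = 1 := PP.sq hEb ⟨⟨t₁, ht₁L⟩, ht₁E, rfl⟩
        have ht₁inv : (π ⟨t₁, ht₁L⟩)⁻¹ = π ⟨t₁, ht₁L⟩ := by rw [inv_eq_iff_mul_eq_one]; exact ht₁2
        have hc1 := h1 _ h
        set b₀ := π ⟨t₀, ht₀L⟩ * π ⟨t₁, ht₁L⟩ with hb₀
        have e1 : π ⟨t₀, ht₀L⟩ = b₀ * π ⟨t₁, ht₁L⟩ := by
          rw [hb₀, mul_assoc, ht₁2, mul_one]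
        have e2 : π ⟨t₀, ht₀L⟩ * π ⟨y, hyL⟩ * (π ⟨t₀, ht₀L⟩)⁻¹ = (π ⟨y, hyL⟩)⁻¹ := by
          rw [e1]
          calc b₀ * π ⟨t₁, ht₁L⟩ * π ⟨y, hyL⟩ * (b₀ * π ⟨t₁, ht₁L⟩)⁻¹
              = b₀ * (π ⟨t₁, ht₁L⟩ * π ⟨y, hyL⟩ * (π ⟨t₁, ht₁L⟩)⁻¹) * b₀⁻¹ := by group
            _ = b₀ * (π ⟨y, hyL⟩)⁻¹ * b₀⁻¹ := by rw [h2]
            _ = (b₀ * π ⟨y, hyL⟩ * b₀⁻¹)⁻¹ := by group
            _ = (π ⟨y, hyL⟩ * b₀ * b₀⁻¹)⁻¹ := by rw [hc1]
            _ = _ := by group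
        have h4 : π (⟨t₀, ht₀L⟩ * ⟨y, hyL⟩ * ⟨t₀, ht₀L⟩⁻¹ * ⟨y, hyL⟩) = 1 := by
          rw [map_mul, map_mul, map_mul, map_inv, e2]; group
        exact hQR (by simpa using (hker _).mp h4)
    obtain ⟨k, hk⟩ := core hP hSL hSp (hAQ.trans hQR) hRS hAel hSA hth hE hER ht₁E' ht₁R hyper hyL hy₀R hinv
    -- transfer back
    have h6 : π ⟨y, hyL⟩ ^ (2 ^ k) ∈ NA.map π := by
      rw [← map_pow]
      rw [hmemNA]
      simpa using hk
    have hord : Odd (orderOf (π ⟨y, hyL⟩)) := by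
      have h7 : (orderOf (π ⟨y, hyL⟩)).Coprime 2 :=
        Nat.Coprime.coprime_dvd_left (Subgroup.orderOf_dvd_natCard _ hηO) hOcop
      exact Nat.coprime_two_right.mp h7
    refine mem_of_coprime_pows (a := 2 ^ k) (b := orderOf (π ⟨y, hyL⟩))
      (Nat.Coprime.pow_left k (Nat.coprime_two_left.mpr hord)) h6 ?_
    rw [pow_orderOf_eq_one]
    exact one_mem _
  set J := JJ 2 (S : Subgroup G) with hJd
  have hJS : J ≤ S := JJ_le 2 _
  set Hs := Hset O O₁ hOn with hHs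
  have hEH : ∀ E ∈ AA 2 (S : Subgroup G), E ≤ (Hs.comap π).map L.subtype := by
    intro E hE e he
    have heL : e ∈ L := hSL (hE.1 he)
    refine ⟨⟨e, heL⟩, ?_, rfl⟩
    exact ⟨hSO₁ e (hE.1 he), fun x hx => hdata E hE x hx _ ⟨⟨e, heL⟩, he, rfl⟩⟩
  have hJH : J ≤ (Hs.comap π).map L.subtype := sSup_le hEH
  set P := (J.subgroupOf L).map π with hPd
  have hPH : P ≤ Hs := by
    rintro _ ⟨j, hj, rfl⟩
    obtain ⟨g, hg, hge⟩ := hJH hj
    have : g = j := Subtype.ext hge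
    rw [← this]; exact hg
  have hPp : IsPGroup 2 P := by
    rintro ⟨_, j, hj, rfl⟩
    obtain ⟨k, hk⟩ := hSp ⟨j, hJS hj⟩
    refine ⟨k, ?_⟩
    apply Subtype.ext
    have h1 : (j : G) ^ (2 ^ k) = 1 := by
      have := congrArg Subtype.val hk
      simpa using this
    have h2 : j ^ (2 ^ k) = 1 := Subtype.ext (by simpa using h1)
    show π j ^ (2 ^ k) = 1
    rw [← map_pow, h2, map_one]
  rintro _ ⟨l, hl, rfl⟩
  have hlO : π l ∈ O := hl
  obtain ⟨c, hc1, hc2⟩ := fixed_in_coset hPp hO₁odd (fun g hg => (hPH hg).1)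
    (fun g hg => (hPH hg).2 (π l) hlO)
  obtain ⟨y, rfl⟩ := hπs c
  have hcO : π y ∈ O := by
    have e : π y = π l * ((π l)⁻¹ * π y) := by group
    rw [e]
    exact mul_mem hlO (hO₁O hc1)
  have hcj : ∀ E ∈ AA 2 (S : Subgroup G), cj (y : G) E ∈ AA 2 (S : Subgroup G) := by
    intro E hE
    refine ⟨?_, PP_cj hE.2.1 _, ?_⟩
    · intro x hx
      rw [mem_cj] at hx
      set e := (y : G)⁻¹ * x * y with he
      have heS : e ∈ (S : Subgroup G) := hE.1 hx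
      have heL : e ∈ L := hSL heS
      have heJ : e ∈ J := AA_le_JJ hE hx
      have h1 := hc2 (π ⟨e, heL⟩) ⟨⟨e, heL⟩, heJ, rfl⟩
      have h2 : π (y * ⟨e, heL⟩ * y⁻¹ * ⟨e, heL⟩⁻¹) = 1 := by
        simp only [map_mul, map_inv]
        rw [← h1]; group
      have h3 : (y : G) * e * (y : G)⁻¹ * e⁻¹ ∈ Q := by simpa using (hker _).mp h2
      have h4 : x = ((y : G) * e * (y : G)⁻¹ * e⁻¹) * e := by rw [he]; group
      rw [h4]
      exact mul_mem (hQS h3) heS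
    · intro V hV hVel
      have h1 := hE.2.2 V hV hVel
      have h2 : Nat.card (cj (y : G) E) = Nat.card E := card_map_equiv (MulAut.conj (y : G)) E
      rw [h2]; exact h1
  have hyJ : (y : G) ∈ normalizer (J : Set G) := by
    have hle : J ≤ cj (y : G)⁻¹ J := by
      refine sSup_le fun E hE e he => ?_
      rw [mem_cj, inv_inv]
      exact AA_le_JJ (hcj E hE) (conj_mem_cj he)
    apply Cfsg.Agent.Lib.Coprime.Three.mem_normalizer_of_conj_mem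
    intro j hj
    have := hle hj
    rw [mem_cj, inv_inv] at this
    exact this
  have hyA := hJ y y.2 hyJ
  have hcO₁ : π y ∈ O₁ := ⟨hcO, (hmemNA y).mpr hyA⟩
  have hlO₁ : π l ∈ O₁ := by
    have e : π l = π y * ((π l)⁻¹ * π y)⁻¹ := by group
    rw [e]
    exact mul_mem hcO₁ (inv_mem hc1)
  exact (hmemNA l).mp hlO₁.2

end Cfsg.Agent.Lib.SFree
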