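import Mathlib
import Cfsg.Agent.Lib.SFree.Layer
import Cfsg.Agent.Lib.PGroup.ZJCore
import Cfsg.Agent.Lib.Components.PComponent

/-!
# Induction over the overgroups of a Sylow subgroup
-/

namespace Cfsg.Agent.Lib.SFree

open Subgroup Cfsg.Agent.Lib.PGroup.ZJ
open Cfsg.Agent.Lib.Basic.PCore
open scoped commutatorElement

variable {G : Type*} [Group G] [Finite G]

/-- Factorization over the odd layer. -/
theorem exists_L2 (S : Sylow 2 G) {L : Subgroup G} (hSL : (S : Subgroup G) ≤ L)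
    (hsol : Group.IsSolvable L) (hne : ¬ L ≤ L1 L) :
    ∃ L₂ : Subgroup G, L₂ ≤ L ∧ L₂ ≠ L ∧ (S : Subgroup G) ≤ L₂ ∧ ∀ g ∈ L, ∃ a ∈ L1 L, ∃ b ∈ L₂, g = a * b := by
  classical
  haveI : Fact (Nat.Prime 2) := ⟨Nat.prime_two⟩
  set π := piL L with hπ
  have hπs : Function.Surjective π := piL_surj L
  set X := ↥L ⧸ (Q2 L).subgroupOf L with hX
  have hsolL : Cfsg.IsPSolvable 2 L :=
    Cfsg.Agent.Lib.Coprime.PSolvable.isPSolvable_of_isSolvable Nat.prime_two hsol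
  have hsolX : Cfsg.IsPSolvable 2 X :=
    Cfsg.Agent.Lib.Coprime.PSolvable.isPSolvable_quotient Nat.prime_two _ hsolL
  have hX0 : Cfsg.pCore 2 X = ⊥ := Q2_quot_core L
  set O := Cfsg.pPrimeCore 2 X with hO
  haveI hOn : O.Normal := pPrimeCore_normal 2 X
  set mk := QuotientGroup.mk' O with hmk
  have hY0 : Cfsg.pPrimeCore 2 (X ⧸ O) = ⊥ :=
    Cfsg.Agent.Lib.Components.PComponent.pPrimeCore_quotient_eq_bot 2
  have hsolY : Cfsg.IsPSolvable 2 (X ⧸ O) :=
    Cfsg.Agent.Lib.Coprime.PSolvable.isPSolvable_quotient Nat.prime_two _ hsolX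
  have hYne : Cfsg.pCore 2 (X ⧸ O) ≠ ⊥ := by
    intro h
    have h1 := Cfsg.Agent.Lib.Solvable.Stability.centralizer_pPrimeCore_le hsolY h
    rw [hY0] at h1
    obtain ⟨g, hg, hg'⟩ := Set.not_subset.mp hne
    apply hg'
    have h2 : mk (π ⟨g, hg⟩) ∈ centralizer (((⊥ : Subgroup (X ⧸ O))) : Set (X ⧸ O)) := by
      refine mem_centralizer_iff.mpr fun h hh => ?_
      have : h = 1 := by simpa using hh
      rw [this]; group
    have h3 := h1 h2
    rw [mem_bot] at h3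
    refine ⟨⟨g, hg⟩, ?_, rfl⟩
    exact (QuotientGroup.eq_one_iff (π ⟨g, hg⟩)).mp h3
  set Y := Cfsg.pCore 2 (X ⧸ O) with hY
  haveI hYn : Y.Normal := pCore_normal 2 _
  have hYp : IsPGroup 2 Y := pCore_isPGroup 2
  set SX : Sylow 2 X := (S.subtype hSL).mapSurjective hπs with hSX
  have hSXc : (SX : Subgroup X) = (S.subgroupOf L).map π := by
    rw [hSX, Sylow.coe_mapSurjective, Sylow.coe_subtype]
  set T := (SX : Subgroup X) ⊓ Y.comap mk with hT
  have hTn : ∀ g ∈ (SX : Subgroup X), ∀ v ∈ T, g * v * g⁻¹ ∈ T := by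
    rintro g hg v ⟨hv1, hv2⟩
    refine mem_inf.mpr ⟨mul_mem (mul_mem hg hv1) (inv_mem hg), ?_⟩
    exact (Subgroup.Normal.comap hYn mk).conj_mem v hv2 g
  refine ⟨((normalizer (T : Set X)).comap π).map L.subtype, ?_, ?_, ?_, ?_⟩
  · rintro _ ⟨g, _, rfl⟩; exact g.2
  · intro h
    have hall : ∀ x : X, x ∈ normalizer (T : Set X) := by
      intro x
      obtain ⟨g, rfl⟩ := hπs x
      have : (g : G) ∈ ((normalizer (T : Set X)).comap π).map L.subtype := by rw [h]; exact g.2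
      obtain ⟨g', hg', he⟩ := this
      have : g' = g := Subtype.ext he
      rw [← this]; exact hg'
    have hTnorm : T.Normal := by
      refine ⟨fun n hn g => ?_⟩
      exact (mem_normalizer_iff.mp (hall g) n).mp hn
    have hTp : IsPGroup 2 T := SX.isPGroup'.to_le inf_le_left
    have hT0 : T ≤ ⊥ := by
      rw [← hX0]
      exact le_pCore hTnorm hTp
    obtain ⟨⟨y, hy⟩, hy1'⟩ := Subgroup.ne_bot_iff_exists_ne_one.mp hYne
    have hy1 : y ≠ 1 := fun h => hy1' (Subtype.ext h)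
    have hle := Cfsg.Agent.Lib.PGroup.ZJCore.le_map_sylow SX Y hYp hy
    obtain ⟨s, hs, rfl⟩ := hle
    have hsT : s ∈ T := ⟨hs, hy⟩
    have := hT0 hsT
    rw [mem_bot] at this
    rw [this, map_one] at hy1
    exact hy1 rfl
  · intro s hs
    have hsL := hSL hs
    refine ⟨⟨s, hsL⟩, ?_, rfl⟩
    show π ⟨s, hsL⟩ ∈ normalizer (T : Set X)
    apply Cfsg.Agent.Lib.Coprime.Three.mem_normalizer_of_conj_mem
    intro v hv
    refine hTn _ ?_ v hv
    rw [hSXc]
    exact ⟨⟨s, hsL⟩, hs, rfl⟩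
  · intro g hg
    obtain ⟨h, hh, he⟩ := Cfsg.Agent.Lib.PGroup.ZJCore.exists_normalizer_lift SX Y hYp (π ⟨g, hg⟩)
    obtain ⟨b, rfl⟩ := hπs h
    refine ⟨g * (b : G)⁻¹, ?_, b, ⟨b, hh, rfl⟩, by group⟩
    refine ⟨⟨g, hg⟩ * b⁻¹, ?_, rfl⟩
    show π (⟨g, hg⟩ * b⁻¹) ∈ O
    rw [map_mul, map_inv, ← QuotientGroup.eq_one_iff]
    show mk (π ⟨g, hg⟩ * (π b)⁻¹) = 1
    rw [map_mul, map_inv, he]
    exact mul_inv_cancel _

/-- Characteristic 2 passes to overgroups of `O₂`. -/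
theorem Char2.of_le {L L₂ : Subgroup G} (hL₂ : L₂ ≤ L) (hQ : Q2 L ≤ L₂) (hc : Char2 L) : Char2 L₂ := by
  haveI : Fact (Nat.Prime 2) := ⟨Nat.prime_two⟩
  have hle : Q2 L ≤ Q2 L₂ := by
    intro q hq
    have hN : ((Q2 L).subgroupOf L₂).Normal := by
      refine ⟨fun n hn g => ?_⟩
      rw [mem_subgroupOf] at hn ⊢
      exact Q2_conj L (hL₂ g.2) hn
    have hp : IsPGroup 2 ((Q2 L).subgroupOf L₂) := by
      rintro ⟨x, hx⟩
      obtain ⟨k, hk⟩ := Q2_isPGroup L ⟨x.1, hx⟩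
      refine ⟨k, ?_⟩
      apply Subtype.ext
      apply Subtype.ext
      have := congrArg Subtype.val hk
      simpa using this
    refine ⟨⟨q, hQ hq⟩, le_pCore hN hp hq, rfl⟩
  intro g hg hcg
  apply hle
  exact hc g (hL₂ hg) (fun q hq => hcg q (hle hq))

/-- **Over**: every admissible overgroup of `S` normalizes `A`. -/
theorem over_core {A : Subgroup G} (S : Sylow 2 G) (hAS : A ≤ S) (hAel : PP 2 A)
    (hSA : (S : Subgroup G) ≤ normalizer (A : Set G)) (hth : ThinOn S A)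
    (hJ : normalizer (JJ 2 (S : Subgroup G) : Set G) ≤ normalizer (A : Set G)) :
    ∀ L : Subgroup G, (S : Subgroup G) ≤ L → Group.IsSolvable L → NoPat L → Char2 L →
      L ≤ normalizer (A : Set G) := by
  intro L
  induction hn : Nat.card L using Nat.strong_induction_on generalizing L with
  | _ n ih =>
  intro hSL hsol hP hc
  have hL1 := layer S hSL hP hc hsol hAS hAel hSA hth (fun g _ hg => hJ hg)
  by_cases hLL : L ≤ L1 L
  · exact hLL.trans hL1
  obtain ⟨L₂, hL₂, hne, hSL₂, hfac⟩ := exists_L2 S hSL hsol hLL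
  have hcard : Nat.card L₂ < Nat.card L := by
    by_contra hge
    push Not at hge
    exact hne (Subgroup.eq_of_le_of_card_ge hL₂ hge)
  have hsol₂ : Group.IsSolvable L₂ :=
    Group.isSolvable_of_isSolvable_injective (f := Subgroup.inclusion hL₂) (Subgroup.inclusion_injective hL₂)
  have hL₂N := ih _ (hn ▸ hcard) L₂ rfl hSL₂ hsol₂ (NoPat.mono hL₂ hP)
    (Char2.of_le hL₂ ((Q2_le_sylow S hSL).trans hSL₂) hc)
  intro g hg
  obtain ⟨a, ha, b, hb, rfl⟩ := hfac g hg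
  exact mul_mem (hL1 ha) (hL₂N hb)

end Cfsg.Agent.Lib.SFree
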