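import Mathlib
import Cfsg.Agent.Lib.SFree.Over

/-!
# Uniqueness of maximal 2-locals
-/

namespace Cfsg.Agent.Lib.SFree

open Subgroup Cfsg.Agent.Lib.PGroup.ZJ
open Cfsg.Agent.Lib.Basic.PCore
open scoped commutatorElement

variable {G : Type*} [Group G] [Finite G]

omit [Finite G] in
theorem twoLocal_normalizer {T : Subgroup G} (hT : IsPGroup 2 T) (hne : T ≠ ⊥) :
    Cfsg.IsTwoLocal (normalizer (T : Set G)) := ⟨T, hT, hne, rfl⟩

theorem exists_max {L : Subgroup G} (hL : Cfsg.IsTwoLocal L) :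
    ∃ M, Cfsg.IsMaximalTwoLocal M ∧ L ≤ M := by
  obtain ⟨N, hN, hmax⟩ := Set.exists_max_image {N : Subgroup G | Cfsg.IsTwoLocal N ∧ L ≤ N}
    (fun U => Nat.card U) (Set.toFinite _) ⟨L, hL, le_rfl⟩
  refine ⟨N, ⟨hN.1, fun N' hN' hle => ?_⟩, hN.2⟩
  have h1 := hmax N' ⟨hN', hN.2.trans hle⟩
  exact (Subgroup.eq_of_le_of_card_ge hle h1).symm

theorem Zo_ne_bot {S : Subgroup G} (hS : IsPGroup 2 S) (hne : S ≠ ⊥) : Zo S ≠ ⊥ := by
  classical
  haveI : Fact (Nat.Prime 2) := ⟨Nat.prime_two⟩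
  haveI : Nontrivial S := (Subgroup.nontrivial_iff_ne_bot S).mpr hne
  haveI := hS.center_nontrivial
  have hc : IsPGroup 2 (center S) := hS.to_subgroup _
  obtain ⟨n, hn⟩ := IsPGroup.iff_card.mp hc
  have hn0 : n ≠ 0 := by
    rintro rfl
    have : Nat.card (center S) = 1 := by simpa using hn
    have h1 := Finite.one_lt_card (α := center S)
    omega
  have h2 : 2 ∣ Nat.card (center S) := by
    rw [hn]; exact dvd_pow_self 2 hn0
  obtain ⟨x, hx⟩ := exists_prime_orderOf_dvd_card' 2 h2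
  intro hbot
  have hmem : ((x : S) : G) ∈ Zo S := by
    refine ⟨(x : S).2, mem_centralizer_iff.mpr ?_, ?_⟩
    · intro y hy
      have h3 := (Subgroup.mem_center_iff.mp x.2) ⟨y, hy⟩
      exact congrArg Subtype.val h3
    · have h3 : x ^ 2 = 1 := by rw [← hx]; exact pow_orderOf_eq_one x
      have h4 := congrArg (fun a : center S => ((a : S) : G)) h3
      simpa [pow_two] using h4
  rw [hbot, mem_bot] at hmem
  have hx1 : x = 1 := Subtype.ext (Subtype.ext hmem)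
  rw [hx1, orderOf_one] at hx
  omega

theorem JJ_ne_bot {S : Subgroup G} (hS : IsPGroup 2 S) (hne : S ≠ ⊥) : JJ 2 S ≠ ⊥ := by
  intro hJ
  obtain ⟨E, hE⟩ := AA_nonempty 2 S
  have hE1 : E ≤ ⊥ := hJ ▸ AA_le_JJ hE
  have h2 := hE.2.2 (Zo S) (Zo_le S) (PP_Zo S)
  have hEb : E = ⊥ := le_bot_iff.mp hE1
  rw [hEb] at h2
  have h3 : Nat.card (⊥ : Subgroup G) = 1 := Subgroup.card_bot
  rw [h3] at h2
  have h4 : Zo S = ⊥ := Subgroup.eq_bot_of_card_le _ h2
  exact Zo_ne_bot hS hne h4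

theorem normalizer_le_Zo (T : Subgroup G) : normalizer (T : Set G) ≤ normalizer (Zo T : Set G) := by
  intro g hg
  apply Cfsg.Agent.Lib.Coprime.Three.mem_normalizer_of_conj_mem
  rintro z ⟨h1, h2, h3⟩
  refine ⟨(mem_normalizer_iff.mp hg z).mp h1, mem_centralizer_iff.mpr fun t ht => ?_, ?_⟩
  · have ht' : g⁻¹ * t * g ∈ T := by
      have := (mem_normalizer_iff.mp (inv_mem hg) t).mp ht
      simpa using this
    have h4 := mem_centralizer_iff.mp h2 _ ht'
    calc t * (g * z * g⁻¹) = g * ((g⁻¹ * t * g) * z) * g⁻¹ := by group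
      _ = g * (z * (g⁻¹ * t * g)) * g⁻¹ := by rw [h4]
      _ = _ := by group
  · calc g * z * g⁻¹ * (g * z * g⁻¹) = g * (z * z) * g⁻¹ := by group
      _ = 1 := by rw [h3]; group

theorem normalizer_le_JJ (T : Subgroup G) : normalizer (T : Set G) ≤ normalizer (JJ 2 T : Set G) := by
  intro g hg
  apply Cfsg.Agent.Lib.Coprime.Three.mem_normalizer_of_conj_mem
  intro x hx
  exact conj_mem_JJ (fun y hy => (mem_normalizer_iff.mp hg y).mp hy) hx

/-- Uniqueness above a Sylow subgroup. -/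
theorem uniq_sylow (hloc : ∀ M : Subgroup G, Cfsg.IsTwoLocal M → Group.IsSolvable M ∧ Char2 M ∧ NoPat M)
    (S : Sylow 2 G) (hne : (S : Subgroup G) ≠ ⊥) {M M' : Subgroup G} (hM : Cfsg.IsMaximalTwoLocal M)
    (hM' : Cfsg.IsMaximalTwoLocal M') (hSM : (S : Subgroup G) ≤ M) (hSM' : (S : Subgroup G) ≤ M') : M = M' := by
  have hSp : IsPGroup 2 (S : Subgroup G) := S.isPGroup'
  set J := JJ 2 (S : Subgroup G) with hJ
  have hJS : J ≤ S := JJ_le 2 _
  have hJne : J ≠ ⊥ := JJ_ne_bot hSp hne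
  have hN₀ := twoLocal_normalizer (hSp.to_le hJS) hJne
  obtain ⟨hs, hc, hP⟩ := hloc _ hN₀
  set N₀ := normalizer (J : Set G) with hN₀d
  have hSN₀ : (S : Subgroup G) ≤ N₀ := by
    intro s hs'
    apply Cfsg.Agent.Lib.Coprime.Three.mem_normalizer_of_conj_mem
    intro x hx
    exact conj_mem_JJ (fun y hy => mul_mem (mul_mem hs' hy) (inv_mem hs')) hx
  have hQS := Q2_le_sylow S hSN₀
  set A := nc N₀ (Zo (S : Subgroup G)) with hA
  have hAZ : A ≤ Zo (Q2 N₀) := nc_le_Zo hSN₀ hQS hc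
  have hAQ : A ≤ Q2 N₀ := hAZ.trans (Zo_le _)
  have hAS : A ≤ S := hAQ.trans hQS
  have hAel : PP 2 A := ⟨fun a ha b hb => (PP_Zo _).1 a (hAZ ha) b (hAZ hb), fun a ha => (PP_Zo _).2 a (hAZ ha)⟩
  have hApg : IsPGroup 2 A := hSp.to_le hAS
  have hAne : A ≠ ⊥ := by
    intro h
    have h1 : Zo (S : Subgroup G) ≤ ⊥ := h ▸ le_nc _ _
    exact Zo_ne_bot hSp hne (le_bot_iff.mp h1)
  have hth : ThinOn S A := v0_thin (S.subtype hSN₀) (Sylow.coe_subtype S hSN₀) hSN₀ hSp hc hP hs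
  have hSA : (S : Subgroup G) ≤ normalizer (A : Set G) := hSN₀.trans (nc_normalizer _ _)
  have hJA : normalizer (J : Set G) ≤ normalizer (A : Set G) := nc_normalizer _ _
  have hov := over_core S hAS hAel hSA hth hJA
  have hNA := twoLocal_normalizer hApg hAne
  have h1 : M ≤ normalizer (A : Set G) := by
    obtain ⟨h1, h2, h3⟩ := hloc M hM.1
    exact hov M hSM h1 h3 h2
  have h2 : M' ≤ normalizer (A : Set G) := by
    obtain ⟨h1, h2, h3⟩ := hloc M' hM'.1
    exact hov M' hSM' h1 h3 h2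
  rw [← hM.2 _ hNA h1, ← hM'.2 _ hNA h2]

/-- Growth in a 2-group. -/
theorem grow {T U : Subgroup G} (hTU : T ≤ U) (hU : IsPGroup 2 U) (hne : ¬ U ≤ T) :
    ∃ T₀, T ≤ T₀ ∧ T ≠ T₀ ∧ T₀ ≤ U ∧ T₀ ≤ normalizer (T : Set G) := by
  classical
  haveI : Fact (Nat.Prime 2) := ⟨Nat.prime_two⟩
  haveI : Group.IsNilpotent U := hU.isNilpotent
  have hnc := Group.normalizerCondition_of_isNilpotent (G := U)
  have hlt : T.subgroupOf U < ⊤ := by
    rw [lt_top_iff_ne_top]
    intro h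
    apply hne
    intro x hx
    have : (⟨x, hx⟩ : U) ∈ T.subgroupOf U := by rw [h]; trivial
    exact this
  have h1 := hnc _ hlt
  obtain ⟨x, hx, hxT⟩ := SetLike.exists_of_lt h1
  refine ⟨U ⊓ normalizer (T : Set G), le_inf hTU le_normalizer, ?_, inf_le_left, inf_le_right⟩
  have hxN : (x : G) ∈ U ⊓ normalizer (T : Set G) := by
    refine mem_inf.mpr ⟨x.2, ?_⟩
    rw [mem_normalizer_iff]
    intro h
    constructor
    · intro hh
      have hh' : (⟨h, hTU hh⟩ : U) ∈ T.subgroupOf U := hh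
      have := (mem_normalizer_iff.mp hx _).mp hh'
      exact this
    · intro hh
      have hhU : h ∈ U := by
        have h2 := hTU hh
        have h3 := mul_mem (mul_mem (inv_mem x.2) h2) x.2
        simpa [mul_assoc] using h3
      have hh' : x * ⟨h, hhU⟩ * x⁻¹ ∈ T.subgroupOf U := hh
      exact (mem_normalizer_iff.mp hx _).mpr hh'
  intro h
  rw [← h] at hxN
  exact hxT hxN

/-- **Thompson-type factorization** in a 2-local. -/
theorem tf {M T : Subgroup G} (hs : Group.IsSolvable M) (hc : Char2 M) (hP : NoPat M) (hTM : T ≤ M)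
    (hTp : IsPGroup 2 T) (hmax : ∀ U, U ≤ M → IsPGroup 2 U → T ≤ U → U ≤ T) :
    ∀ g ∈ M, ∃ n ∈ normalizer (Zo T : Set G), ∃ h ∈ normalizer (JJ 2 T : Set G), g = n * h := by
  classical
  haveI : Fact (Nat.Prime 2) := ⟨Nat.prime_two⟩
  have hT' : IsPGroup 2 (T.subgroupOf M) := by
    rintro ⟨x, hx⟩
    obtain ⟨k, hk⟩ := hTp ⟨x.1, hx⟩
    refine ⟨k, ?_⟩
    apply Subtype.ext
    apply Subtype.ext
    have := congrArg Subtype.val hk
    simpa using this
  obtain ⟨Sy, hSy⟩ := hT'.exists_le_sylow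
  set U := (Sy : Subgroup M).map M.subtype with hU
  have hUM : U ≤ M := by rintro _ ⟨x, _, rfl⟩; exact x.2
  have hUp : IsPGroup 2 U := Sy.isPGroup'.map M.subtype
  have hTU : T ≤ U := fun x hx => ⟨⟨x, hTM hx⟩, hSy hx, rfl⟩
  have hUT := hmax U hUM hUp hTU
  have hSyeq : (Sy : Subgroup M) = T.subgroupOf M := by
    apply le_antisymm
    · intro x hx
      exact hUT ⟨x, hx, rfl⟩
    · exact hSy
  have hth : ThinOn T (nc M (Zo T)) := v0_thin Sy hSyeq hTM hTp hc hP hs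
  have hQT : Q2 M ≤ T := Q2_le_of_sylow Sy hSyeq
  set V := nc M (Zo T) with hV
  have hVZ : V ≤ Zo (Q2 M) := nc_le_Zo hTM hQT hc
  have hVT : V ≤ T := (hVZ.trans (Zo_le _)).trans hQT
  have hVel : PP 2 V := ⟨fun a ha b hb => (PP_Zo _).1 a (hVZ ha) b (hVZ hb), fun a ha => (PP_Zo _).2 a (hVZ ha)⟩
  have hEC : ∀ E ∈ AA 2 T, E ≤ centralizer (V : Set G) := by
    intro E hE
    have h1 := hth E hE.1 (elemOn_of_PP hE.2.1)
    have h2 : (centralizer (E : Set G)).relIndex V ≤ E.relIndex V := by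
      have := relIndex_le_of_le (H := E ⊓ V) (K := centralizer (E : Set G))
        (by
          rintro x ⟨hx1, _⟩
          exact mem_centralizer_iff.mpr fun h hh => hE.2.1.1 h hh x hx1) V
      rwa [Subgroup.inf_relIndex_right] at this
    have h3 := offender hE hVT hVel
    have h0 : (centralizer (V : Set G)).relIndex E ≠ 0 := Subgroup.index_ne_zero_of_finite
    have h4 : (centralizer (V : Set G)).relIndex E = 1 := by
      have h5 : ((centralizer (V : Set G)).relIndex E) ^ 2 ≤ (centralizer (V : Set G)).relIndex E := by omega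
      nlinarith [Nat.pos_of_ne_zero h0]
    exact Subgroup.relIndex_eq_one.mp h4
  have hJC : JJ 2 T ≤ centralizer (V : Set G) := sSup_le hEC
  set T₂ := T ⊓ centralizer (V : Set G) with hT₂
  have hJT₂ : JJ 2 T ≤ T₂ := le_inf (JJ_le 2 T) hJC
  have hT₂T : T₂ ≤ T := inf_le_left
  have hAA : AA 2 T₂ = AA 2 T := by
    ext U'
    constructor
    · intro hU'
      obtain ⟨E, hE⟩ := AA_nonempty 2 T
      have hEle : E ≤ T₂ := (AA_le_JJ hE).trans hJT₂
      have h1 := hU'.2.2 E hEle hE.2.1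
      exact ⟨hU'.1.trans hT₂T, hU'.2.1, fun W hW hWel => (hE.2.2 W hW hWel).trans h1⟩
    · intro hU'
      exact ⟨(AA_le_JJ hU').trans hJT₂, hU'.2.1, fun W hW hWel => hU'.2.2 W (hW.trans hT₂T) hWel⟩
  have hJJ : JJ 2 T₂ = JJ 2 T := by
    rw [JJ, JJ, hAA]
  have hLN : M ≤ normalizer (V : Set G) := nc_normalizer _ _
  set K' := (centralizer (V : Set G)).subgroupOf M with hK'
  haveI hK'n : K'.Normal := by
    refine ⟨fun n hn g => ?_⟩
    rw [hK', mem_subgroupOf] at hn ⊢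
    refine mem_centralizer_iff.mpr ?_
    intro a ha
    have h1 : (g : G)⁻¹ * a * g ∈ V := by
      have := (mem_normalizer_iff.mp (hLN (M.inv_mem g.2)) a).mp ha
      simpa using this
    have h2 := mem_centralizer_iff.mp hn _ h1
    show a * ((g : G) * n * (g : G)⁻¹) = ((g : G) * n * (g : G)⁻¹) * a
    calc a * ((g : G) * n * (g : G)⁻¹) = g * (((g : G)⁻¹ * a * g) * n) * (g : G)⁻¹ := by group
      _ = g * (n * ((g : G)⁻¹ * a * g)) * (g : G)⁻¹ := by rw [h2]
      _ = _ := by group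
  obtain ⟨Q', hQ'⟩ := Cfsg.Agent.Lib.Basic.SylowUtil.exists_sylow_inf_normal Sy K'
  intro g hg
  obtain ⟨n, hn, h, hh, he⟩ := Cfsg.Agent.Lib.Basic.SylowUtil.frattini_argument' Q' (⟨g, hg⟩ : M)
  rw [hQ'] at hh
  refine ⟨n, ?_, h, ?_, ?_⟩
  · apply Cfsg.Agent.Lib.Coprime.Three.mem_normalizer_of_conj_mem
    intro z hz
    have h1 : z * (n : G) = (n : G) * z := mem_centralizer_iff.mp hn z (le_nc _ _ hz)
    have e : (n : G) * z * (n : G)⁻¹ = z := by rw [← h1]; group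
    rw [e]; exact hz
  · apply Cfsg.Agent.Lib.Coprime.Three.mem_normalizer_of_conj_mem
    intro x hx
    rw [← hJJ] at hx ⊢
    refine conj_mem_JJ (fun y hy => ?_) hx
    have hyM : y ∈ M := hTM hy.1
    have hy' : (⟨y, hyM⟩ : M) ∈ (Sy : Subgroup M) ⊓ K' := by
      refine mem_inf.mpr ⟨?_, hy.2⟩
      rw [hSyeq]; exact hy.1
    have h1 := (mem_normalizer_iff.mp hh _).mp hy'
    obtain ⟨h2, h3⟩ := mem_inf.mp h1
    rw [hSyeq] at h2
    exact mem_inf.mpr ⟨h2, h3⟩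
  · exact congrArg Subtype.val he

/-- **Uniqueness**: at most one maximal 2-local over any nontrivial 2-subgroup. -/
theorem uniq_all (hloc : ∀ M : Subgroup G, Cfsg.IsTwoLocal M → Group.IsSolvable M ∧ Char2 M ∧ NoPat M) :
    ∀ T : Subgroup G, IsPGroup 2 T → T ≠ ⊥ → ∀ M M' : Subgroup G, Cfsg.IsMaximalTwoLocal M →
      Cfsg.IsMaximalTwoLocal M' → T ≤ M → T ≤ M' → M = M' := by
  classical
  haveI : Fact (Nat.Prime 2) := ⟨Nat.prime_two⟩
  intro T
  induction hn : (Nat.card G - Nat.card T) using Nat.strong_induction_on generalizing T with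
  | _ n ih =>
  intro hTp hTne
  have hIH : ∀ T' : Subgroup G, IsPGroup 2 T' → T ≤ T' → T ≠ T' → ∀ M M' : Subgroup G,
      Cfsg.IsMaximalTwoLocal M → Cfsg.IsMaximalTwoLocal M' → T' ≤ M → T' ≤ M' → M = M' := by
    intro T' hT'p hle hne
    have hlt : Nat.card T < Nat.card T' := by
      by_contra hge
      push Not at hge
      exact hne (Subgroup.eq_of_le_of_card_ge hle hge)
    have hle2 : Nat.card T' ≤ Nat.card G := Subgroup.card_le_card_group T'
    refine ih _ (by omega) T' rfl hT'p ?_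
    intro h
    rw [h] at hle
    exact hTne (le_bot_iff.mp hle)
  obtain ⟨U, hTU⟩ := hTp.exists_le_sylow
  by_cases hUT : (U : Subgroup G) ≤ T
  · intro M M' hM hM' h1 h2
    have hUne : (U : Subgroup G) ≠ ⊥ := by
      intro h
      rw [h] at hTU
      exact hTne (le_bot_iff.mp hTU)
    exact uniq_sylow hloc U hUne hM hM' (hUT.trans h1) (hUT.trans h2)
  obtain ⟨T₀, hT₀1, hT₀2, hT₀3, hT₀4⟩ := grow hTU U.isPGroup' hUT
  have hT₀p : IsPGroup 2 T₀ := U.isPGroup'.to_le hT₀3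
  obtain ⟨M₃, hM₃, hM₃le⟩ := exists_max (twoLocal_normalizer hTp hTne)
  have hclaim : ∀ M : Subgroup G, Cfsg.IsMaximalTwoLocal M → T ≤ M → M = M₃ := by
    intro M hM hTM
    by_cases hsub : ∃ U' : Subgroup G, U' ≤ M ∧ IsPGroup 2 U' ∧ T ≤ U' ∧ ¬ U' ≤ T
    · obtain ⟨U', hU'M, hU'p, hTU', hnot⟩ := hsub
      obtain ⟨T₁, hT₁1, hT₁2, hT₁3, hT₁4⟩ := grow hTU' hU'p hnot
      exact hIH T₁ (hU'p.to_le hT₁3) hT₁1 hT₁2 M M₃ hM hM₃ (hT₁3.trans hU'M) (hT₁4.trans hM₃le)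
    · push Not at hsub
      obtain ⟨hs, hc, hP⟩ := hloc M hM.1
      have htf := tf hs hc hP hTM hTp hsub
      have hZne := Zo_ne_bot hTp hTne
      have hJne := JJ_ne_bot hTp hTne
      obtain ⟨M₄, hM₄, hM₄le⟩ := exists_max (twoLocal_normalizer (hTp.to_le (Zo_le T)) hZne)
      obtain ⟨M₅, hM₅, hM₅le⟩ := exists_max (twoLocal_normalizer (hTp.to_le (JJ_le 2 T)) hJne)
      have h4 : M₄ = M₃ := hIH T₀ hT₀p hT₀1 hT₀2 M₄ M₃ hM₄ hM₃
        ((hT₀4.trans (normalizer_le_Zo T)).trans hM₄le) (hT₀4.trans hM₃le)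
      have h5 : M₅ = M₃ := hIH T₀ hT₀p hT₀1 hT₀2 M₅ M₃ hM₅ hM₃
        ((hT₀4.trans (normalizer_le_JJ T)).trans hM₅le) (hT₀4.trans hM₃le)
      have hle : M ≤ M₃ := by
        intro g hg
        obtain ⟨n, hn, h, hh, rfl⟩ := htf g hg
        exact mul_mem (h4 ▸ hM₄le hn) (h5 ▸ hM₅le hh)
      exact (hM.2 _ hM₃.1 hle).symm
  intro M M' hM hM' h1 h2
  rw [hclaim M hM h1, hclaim M' hM' h2]

omit [Finite G] in
theorem twoLocal_cj {L : Subgroup G} (hL : Cfsg.IsTwoLocal L) (g : G) : Cfsg.IsTwoLocal (cj g L) := by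
  obtain ⟨T, hT, hne, rfl⟩ := hL
  refine ⟨cj g T, hT.map _, ?_, ?_⟩
  · intro h
    apply hne
    rw [eq_bot_iff]
    intro x hx
    have h1 : g * x * g⁻¹ ∈ cj g T := conj_mem_cj hx
    rw [h, mem_bot] at h1
    have h2 : x = g⁻¹ * (g * x * g⁻¹) * g := by group
    rw [h2, h1, mem_bot]; group
  · ext x
    rw [mem_cj, mem_normalizer_iff, mem_normalizer_iff]
    constructor
    · intro h a
      rw [mem_cj, mem_cj]
      have := h (g⁻¹ * a * g)
      have e : g⁻¹ * x * g * (g⁻¹ * a * g) * (g⁻¹ * x * g)⁻¹ = g⁻¹ * (x * a * x⁻¹) * g := by group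
      rwa [e] at this
    · intro h a
      have h1 := h (g * a * g⁻¹)
      rw [mem_cj, mem_cj] at h1
      have e1 : g⁻¹ * (g * a * g⁻¹) * g = a := by group
      have e2 : g⁻¹ * (x * (g * a * g⁻¹) * x⁻¹) * g = g⁻¹ * x * g * a * (g⁻¹ * x * g)⁻¹ := by group
      rwa [e1, e2] at h1

theorem maxTwoLocal_cj {M : Subgroup G} (hM : Cfsg.IsMaximalTwoLocal M) (g : G) :
    Cfsg.IsMaximalTwoLocal (cj g M) := by
  refine ⟨twoLocal_cj hM.1 g, fun N hN hle => ?_⟩
  have h1 : M ≤ cj g⁻¹ N := by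
    intro x hx
    rw [mem_cj, inv_inv]
    exact hle (conj_mem_cj hx)
  have h2 := hM.2 _ (twoLocal_cj hN g⁻¹) h1
  rw [← h2, cj_cj_inv]

/-- **Strong embedding**. -/
theorem strongly_embedded (hO : Cfsg.pCore 2 G = ⊥)
    (hloc : ∀ M : Subgroup G, Cfsg.IsTwoLocal M → Group.IsSolvable M ∧ Char2 M ∧ NoPat M)
    {M : Subgroup G} (hM : Cfsg.IsMaximalTwoLocal M) : Cfsg.IsStronglyEmbedded M := by
  classical
  haveI : Fact (Nat.Prime 2) := ⟨Nat.prime_two⟩
  obtain ⟨T₀, hT₀p, hT₀ne, hMe⟩ := hM.1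
  have hT₀M : T₀ ≤ M := hMe ▸ le_normalizer
  refine ⟨?_, ?_, ?_⟩
  · intro h
    apply hT₀ne
    rw [eq_bot_iff, ← hO]
    apply le_pCore _ hT₀p
    refine ⟨fun n hn g => ?_⟩
    have hg : g ∈ normalizer (T₀ : Set G) := by rw [← hMe, h]; trivial
    exact (mem_normalizer_iff.mp hg n).mp hn
  · have h1 : Nat.card T₀ ∣ Nat.card M := Subgroup.card_dvd_of_le hT₀M
    obtain ⟨k, hk⟩ := IsPGroup.iff_card.mp hT₀p
    have hk0 : k ≠ 0 := by
      rintro rfl
      apply hT₀ne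
      apply Subgroup.eq_bot_of_card_le
      rw [hk]; norm_num
    have h2 : 2 ∣ Nat.card T₀ := by rw [hk]; exact dvd_pow_self 2 hk0
    exact even_iff_two_dvd.mpr (h2.trans h1)
  · intro g hg
    by_contra hodd
    rw [Nat.not_odd_iff_even] at hodd
    change Even (Nat.card ↥(M ⊓ cj g M)) at hodd
    obtain ⟨x, hx⟩ := exists_prime_orderOf_dvd_card' 2 (even_iff_two_dvd.mp hodd)
    have hxo : orderOf (x : G) = 2 := by rw [Subgroup.orderOf_coe]; exact hx
    have hTp : IsPGroup 2 (zpowers (x : G)) := by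
      apply IsPGroup.of_card (n := 1)
      rw [Nat.card_zpowers, hxo, pow_one]
    have hTne : zpowers (x : G) ≠ ⊥ := by
      intro h
      have h1 : (x : G) ∈ zpowers (x : G) := mem_zpowers _
      rw [h, mem_bot] at h1
      rw [h1, orderOf_one] at hxo
      omega
    have hMg := maxTwoLocal_cj hM g
    have heq := uniq_all hloc (zpowers (x : G)) hTp hTne M (cj g M) hM hMg
      (by rw [zpowers_le]; exact x.2.1) (by rw [zpowers_le]; exact x.2.2)
    -- `g` normalizes `O₂(M)`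
    obtain ⟨hs, hc, hP⟩ := hloc M hM.1
    have hQne : Q2 M ≠ ⊥ := by
      intro h
      apply hT₀ne
      rw [eq_bot_iff, ← h]
      intro t ht
      have hN : (T₀.subgroupOf M).Normal := by
        refine ⟨fun n hn m => ?_⟩
        rw [mem_subgroupOf] at hn ⊢
        have hm : (m : G) ∈ normalizer (T₀ : Set G) := by rw [← hMe]; exact m.2
        exact (mem_normalizer_iff.mp hm n).mp hn
      have hp : IsPGroup 2 (T₀.subgroupOf M) := by
        rintro ⟨y, hy⟩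
        obtain ⟨k, hk⟩ := hT₀p ⟨y.1, hy⟩
        refine ⟨k, ?_⟩
        apply Subtype.ext
        apply Subtype.ext
        have := congrArg Subtype.val hk
        simpa using this
      exact ⟨⟨t, hT₀M ht⟩, le_pCore hN hp ht, rfl⟩
    have hgQ : g ∈ normalizer (Q2 M : Set G) := by
      apply Cfsg.Agent.Lib.Coprime.Three.mem_normalizer_of_conj_mem
      intro q hq
      have hqM : g * q * g⁻¹ ∈ M := by
        rw [heq]; exact conj_mem_cj (Q2_le M hq)
      have hN : ((cj g (Q2 M)).subgroupOf M).Normal := by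
        refine ⟨fun n hn m => ?_⟩
        rw [mem_subgroupOf] at hn ⊢
        have hm' : (g⁻¹ * (m : G) * g) ∈ M := mem_cj.mp ((le_of_eq heq) m.2)
        rw [mem_cj] at hn ⊢
        have e : g⁻¹ * ((m : G) * n * (m : G)⁻¹) * g
            = (g⁻¹ * (m : G) * g) * (g⁻¹ * n * g) * (g⁻¹ * (m : G) * g)⁻¹ := by group
        show g⁻¹ * ((m : G) * n * (m : G)⁻¹) * g ∈ Q2 M
        rw [e]
        exact Q2_conj M hm' hn
      have hp : IsPGroup 2 ((cj g (Q2 M)).subgroupOf M) := by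
        rintro ⟨y, hy⟩
        have hy' : g⁻¹ * y.1 * g ∈ Q2 M := mem_cj.mp hy
        obtain ⟨k, hk⟩ := Q2_isPGroup M ⟨_, hy'⟩
        refine ⟨k, ?_⟩
        apply Subtype.ext
        apply Subtype.ext
        have h1 := congrArg Subtype.val hk
        have h2 : (g⁻¹ * y.1 * g) ^ (2 ^ k) = 1 := by simpa using h1
        have h3 : (g⁻¹ * y.1 * g) ^ (2 ^ k) = g⁻¹ * y.1 ^ (2 ^ k) * g := by
          have := conj_pow (a := g⁻¹) (b := y.1) (i := 2 ^ k)
          simpa using this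
        rw [h3] at h2
        have h4 : y.1 ^ (2 ^ k) = g * (g⁻¹ * y.1 ^ (2 ^ k) * g) * g⁻¹ := by group
        rw [h2] at h4
        simpa using h4
      have hmem : (⟨g * q * g⁻¹, hqM⟩ : M) ∈ (cj g (Q2 M)).subgroupOf M := by
        rw [mem_subgroupOf]
        exact conj_mem_cj hq
      exact ⟨⟨g * q * g⁻¹, hqM⟩, le_pCore hN hp hmem, rfl⟩
    have hNQ := twoLocal_normalizer (Q2_isPGroup M) hQne
    have h1 := hM.2 _ hNQ (Q2_normalizer M)
    rw [h1] at hgQ
    exact hg (by simpa using hgQ)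

end Cfsg.Agent.Lib.SFree
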